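import Cfsg.Agent.B85I.B
import Cfsg.Agent.B85.Hy

/-! # Unitary coordinates for the conjugates of the root group -/

set_option autoImplicit false
set_option linter.unusedSectionVars false

namespace Cfsg.Agent.B85I

open Cfsg.Agent.GT Cfsg.Agent.Cl Cfsg.Agent.Cl.Uni Cfsg.Agent.B85 Subgroup

variable {F G Ω : Type*} [Field F] [StarRing F] [NeZero (2 : F)] [Group G] [MulAction G Ω]

theorem su_ext {A B : U2 F} (ha : dt A = 1) (hb : dt B = 1) (h1 : A.a + A.b = B.a + B.b) (h2 : A.c + A.d = B.c + B.d) :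
    A = B := by
  have k : ∀ {A : U2 F}, dt A = 1 → star A.a = A.a ∧ star A.b = -A.b ∧ star A.c = -A.c ∧ star A.d = A.d := fun {A} e => by
    have e : A.a * A.d - A.b * A.c = 1 := congrArg Subtype.val e
    exact ⟨by simpa [e] using A.sa, by simpa [e] using A.sb, by simpa [e] using A.sc, by simpa [e] using A.sd⟩
  obtain ⟨a1, a2, a3, a4⟩ := k ha
  obtain ⟨b1, b2, b3, b4⟩ := k hb
  have h3 := congrArg star h1
  have h4 := congrArg star h2
  simp only [star_add, a1, a2, a3, a4, b1, b2, b3, b4] at h3 h4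
  ext <;> refine mul_left_cancel₀ two_ne_zero ?_
  exacts [by linear_combination h1 + h3, by linear_combination h1 - h3, by linear_combination h2 - h4,
    by linear_combination h2 + h4]

theorem su_ex {p r : F} (h : p * star r + r * star p = 2) : ∃ A : U2 F, dt A = 1 ∧ A.a + A.b = p ∧ A.c + A.d = r := by
  refine ⟨⟨(p + star p) / 2, (p - star p) / 2, (r - star r) / 2, (r + star r) / 2, ?_, ?_, ?_⟩, Subtype.ext ?_, ?_, ?_⟩
  · simp only [star_div₀, star_add, star_sub, star_star, star_ofNat]; ring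
  · simp only [star_div₀, star_add, star_sub, star_star, star_ofNat]; ring
  · simp only [star_div₀, star_add, star_sub, star_star, star_ofNat]; field_simp; linear_combination 2 * h
  · simp only [dt_val, OneMemClass.coe_one]; field_simp; linear_combination 2 * h
  · field_simp; ring
  · field_simp; ring

theorem card_Vd {q : ℕ} (H : IsFrob F q) : Nat.card {p : F × F // Vd p.1 p.2} = q ^ 3 := by
  rw [Nat.card_congr (show {p : F × F // Vd p.1 p.2} ≃ skewAdjoint F × F from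
    ⟨fun p => (⟨p.1.1 - -(p.1.2 * star p.1.2) / 2, by
      rw [skewAdjoint.mem_iff]; linear_combination p.2.sub (Vd.half two_ne_zero _)⟩, p.1.2),
    fun p => ⟨(-(p.2 * star p.2) / 2 + p.1, p.2), (Vd.half two_ne_zero _).add (by simp [sk])⟩,
    fun p => by simp, fun p => by simp⟩), Nat.card_prod, card_skew H, H.card]
  ring

variable {q : ℕ} {φ : U2 F →* G} {g x : G} {Q : Subgroup G} {inf : Ω} {A B : U2 F}

/-- the data of the doubly transitive action -/
structure TD (q : ℕ) (φ : U2 F →* G) (g : G) (Q : Subgroup G) (inf : Ω) : Prop extends Hy q φ g where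
  le : RU φ ≤ Q
  cen : Q ≤ C[RU φ]
  card : Nat.card Q = q ^ 3
  nrm : Kt φ ≤ N[Q]
  fix : ∀ y ∈ Q, Commute y (φ (td (-1) (-1))) → y ∈ RU φ
  two : ∀ b ∈ N[RU φ], φ ww * b * (φ ww)⁻¹ ∈ N[RU φ] → b ∈ Kt φ
  st : ∀ x : G, x • inf = inf ↔ x ∈ N[RU φ]
  tr : ∀ ω, ω ≠ inf → ∃ y ∈ Q, y • φ ww • inf = ω
  idx : Nat.card Ω = q ^ 3 + 1

namespace TD

variable (h : TD q φ g Q inf)
include h

theorem ww2 (ω : Ω) : φ ww • φ ww • ω = ω := by rw [← mul_smul, ← map_mul, ww_mul, map_one, one_smul]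

theorem k_inf (a : Fˣ) : φ (kk a) • inf = inf := (h.st _).2 (Kt_RU (kk_mem a))

theorem x_inf (c : skewAdjoint F) : φ (xu c) • inf = inf := (h.st _).2 (le_normalizer (xu_mem c))

theorem k_o (a : Fˣ) : φ (kk a) • φ ww • inf = φ ww • inf := by
  rw [← h.ww2 (φ (kk a) • _), ← mul_smul (φ ww) (φ (kk a)), ← mul_smul (_ * _), ← map_mul, ← map_mul]
  nth_rewrite 3 [← ww_inv]
  rw [ww_kk, h.k_inf]

theorem o_ne : φ ww • inf ≠ inf := fun e => by
  obtain ⟨c, a, e⟩ := h.norm_RU ((h.st _).1 e)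
  simpa using congrArg U2.c e

theorem mem_K (h1 : x • inf = inf) (h2 : x • φ ww • inf = φ ww • inf) : ∃ a, φ (kk a) = x :=
  h.two x ((h.st _).1 h1) ((h.st _).1 (by rw [← map_inv, ww_inv, mul_smul, mul_smul, h2, h.ww2]))

theorem Qinf (hx : x ∈ Q) : x • inf = inf := (h.st _).2 (centralizer_le_normalizer _ (h.cen hx))

theorem Qfr (hx : x ∈ Q) (e : x • φ ww • inf = φ ww • inf) : x = 1 := by
  obtain ⟨a, rfl⟩ := h.mem_K (h.Qinf hx) e
  obtain ⟨c, hc⟩ := mem_RU.1 (h.fix _ hx (by rw [td_neg]; exact kk_comm _ _))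
  obtain ⟨i, hi⟩ := exists_i h.fr
  have := cj_xu (φ := φ) i c
  rw [hc, (kk_comm i a).eq, mul_inv_cancel_right, ← hc] at this
  have := congrArg Subtype.val (h.xu_inj' this)
  rw [nsm_val, hi] at this
  obtain rfl : c = 0 := Subtype.ext (mul_left_cancel₀ two_ne_zero (by simp only [ZeroMemClass.coe_zero]; linear_combination this))
  rw [← hc, xu_zero, map_one]

theorem w_om : φ ww • g • inf = g • inf := by
  rw [← td_ww, ← h.g1, mul_smul, inv_smul_smul, mul_smul, td_neg, h.k_inf]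

theorem t3_inf : φ (td (-1) 1) • inf = φ ww • inf := by
  rw [← t12, T_comm.eq, mul_smul, td_neg, h.k_inf, td_ww]

theorem stab (e : φ A • g • inf = g • inf) : (∃ a b, A = td a b) ∧ ∃ c, φ A = g * φ (td c c) * g⁻¹ := by
  have c3 : Commute (g⁻¹ * φ A * g) (φ (td (-1) 1)) := (TT.commute_conj_iff g).1 (by
    rw [h.g3]; simpa [mul_assoc] using h.cent.2 ⟨A, rfl⟩)
  have e1 : (g⁻¹ * φ A * g) • inf = inf := by rw [mul_smul, mul_smul, e, inv_smul_smul]
  obtain ⟨a, ha⟩ := h.mem_K e1 (by rw [← h.t3_inf, ← mul_smul, c3.eq, mul_smul, e1])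
  have c1 : Commute (φ (kk a)) (φ (td (-1) (-1))) := by rw [td_neg]; exact kk_comm _ _
  have c2 : Commute (φ (kk a)) (φ (td 1 (-1))) := by
    have := c1.mul_right (ha ▸ c3)
    rwa [← t12, ← mul_assoc, tt1, one_mul] at this
  refine ⟨h.cent_t2.1 ?_, ?_⟩
  · rw [← h.g1, show φ A = g * φ (kk a) * g⁻¹ by rw [ha]; group]
    exact (TT.commute_conj_iff g).2 c1
  · obtain ⟨c, d, e⟩ := h.cent_t2.1 c2
    obtain rfl : c = d := Subtype.ext (sub_eq_zero.1 (by simpa [two_ne_zero] using (congrArg U2.b e).symm))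
    exact ⟨c, by rw [← e, ha]; group⟩

theorem free (hd : dt A = 1) (e : φ A • g • inf = g • inf) : A = 1 := by
  obtain ⟨⟨a, b, rfl⟩, c, hc⟩ := h.stab e
  obtain ⟨i, hi⟩ := exists_i h.fr
  rw [dt_td] at hd
  have s : φ (kk i) * φ (td a b) * (φ (kk i))⁻¹ = (φ (td a b))⁻¹ := by
    rw [cj_swap hi, ← map_inv, td_inv, eq_inv_of_mul_eq_one_left hd, inv_inv]
  obtain ⟨a1, b1, e1⟩ := h.wg_sq hi
  obtain ⟨a2, b2, e2⟩ := h.g_cube
  have k1 : φ (kk i) * (g⁻¹ * φ (td a b) * g) * (φ (kk i))⁻¹ = g⁻¹ * φ (td a b) * g := by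
    rw [hc, show g⁻¹ * (g * φ (td c c) * g⁻¹) * g = φ (td c c) by group, ← (Z_comm c _).eq, mul_inv_cancel_right]
  have k2 : g * φ (td a b) * g⁻¹ = g⁻¹ * (φ (td a b))⁻¹ * g := by
    obtain ⟨c', d', e3⟩ := h.g_T' a b
    have := (TT.commute_iff_conj.1
      (e1 ▸ e3 ▸ T_comm : Commute (φ (kk i) * g * (φ (kk i) * g)) (g⁻¹ * φ (td a b) * g))).trans k1.symm
    rw [show ∀ s z : G, s * g * (s * g) * (g⁻¹ * z * g) * (s * g * (s * g))⁻¹ = s * (g * (s * z * s⁻¹) * g⁻¹) * s⁻¹ from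
      fun _ _ => by group, s, mul_left_inj, mul_right_inj] at this
    rw [← inv_inj, conj_inv, this]; group
  have k3 : g * g * φ (td a b) * (g * g)⁻¹ = (φ (td a b))⁻¹ := by
    rw [show g * g * φ (td a b) * (g * g)⁻¹ = g * (g * φ (td a b) * g⁻¹) * g⁻¹ by group, k2]; group
  have k4 : φ (td a b) = (φ (td a b))⁻¹ := by
    have c3 := TT.commute_iff_conj.1 (e2 ▸ T_comm : Commute (g ^ 3) (φ (td a b)))
    nth_rewrite 1 [← c3, ← c3]
    rw [show ∀ z : G, g ^ 3 * (g ^ 3 * z * (g ^ 3)⁻¹) * (g ^ 3)⁻¹ =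
      g * g * (g * g * (g * g * z * (g * g)⁻¹) * (g * g)⁻¹) * (g * g)⁻¹ from fun _ => by
      rw [pow_three']; group, k3, ← conj_inv, k3, inv_inv, k3]
  rw [← map_inv] at k4
  have k5 := h.inj_det k4 (by rw [map_inv, dt_td, hd, inv_one])
  rw [td_inv] at k5
  obtain rfl : b = a := (eq_inv_of_mul_eq_one_right hd).trans (td_inj.1 k5).1.symm
  rcases mul_self_eq_one_iff.1 (show (b : F) * b = 1 from congrArg Subtype.val hd) with r | r
  · rw [show b = 1 from Subtype.ext r, td_one]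
  · rw [show b = -1 from Subtype.ext r, ← h.g3, mul_smul, inv_smul_smul, mul_smul, smul_left_cancel_iff, h.t3_inf] at e
    exact (h.o_ne e).elim

theorem exists_pt : ∃ (l : F) (pt : F → F → Ω), l ≠ 0 ∧ (∀ c : skewAdjoint F, pt c 0 = φ (xu c) • φ ww • inf) ∧
    (∀ {y s}, Vd y s → s ≠ 0 → ∃ A, dt A = 1 ∧ s * l * (A.c + A.d) = 1 ∧ s * l * (A.a + A.b) = y) ∧
    ∀ {y s A}, dt A = 1 → s * l * (A.c + A.d) = 1 → s * l * (A.a + A.b) = y → pt y s = φ A • g • inf := by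
  classical
  obtain ⟨l, hl⟩ := h.fr.exists_norm (c := -1 / 2) (by simp)
  have l0 : l ≠ 0 := by rintro rfl; field_simp at hl; simp at hl
  refine ⟨l, fun y s => if e : ∃ A : U2 F, dt A = 1 ∧ s * l * (A.c + A.d) = 1 ∧ s * l * (A.a + A.b) = y then
    φ e.choose • g • inf else φ (xu ⟨(y - star y) / 2, by simp [skewAdjoint.mem_iff, ← neg_div]⟩) • φ ww • inf,
    l0, fun c => ?_, fun {y s} v s0 => ?_, fun {y s A} h1 h2 h3 => ?_⟩
  · simp only []
    rw [dif_neg (by simp)]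
    congr 3
    exact Subtype.ext (by simp [sk])
  · have := star_ne_zero.2 s0
    have := star_ne_zero.2 l0
    obtain ⟨A, h1, h2, h3⟩ := su_ex (p := y / (s * l)) (r := 1 / (s * l)) (by
      simp only [star_div₀, star_mul', star_one]; unfold Vd at v; field_simp at hl ⊢
      linear_combination v - s * star s * hl)
    exact ⟨A, h1, by rw [h3]; field_simp, by rw [h2]; field_simp⟩
  · have e : ∃ A : U2 F, dt A = 1 ∧ s * l * (A.c + A.d) = 1 ∧ s * l * (A.a + A.b) = y := ⟨A, h1, h2, h3⟩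
    simp only []
    rw [dif_pos e]
    obtain ⟨k1, k2, k3⟩ := e.choose_spec
    have := left_ne_zero_of_mul_eq_one h2
    rw [su_ext k1 h1 (mul_left_cancel₀ this (k3.trans h3.symm)) (mul_left_cancel₀ this (k2.trans h2.symm))]

theorem exists_co : ∃ pt : F → F → Ω, Co inf pt Q (φ ww) := by
  obtain ⟨l, pt, l0, p0, ex, p1⟩ := h.exists_pt
  have p0' : ∀ {y : F}, Vd y 0 → ∃ c : skewAdjoint F, (c : F) = y := fun {y} v =>
    ⟨⟨y, by rw [skewAdjoint.mem_iff]; linear_combination v.to0⟩, rfl⟩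
  have p00 : pt 0 0 = φ ww • inf := by simpa [xu_zero] using p0 0
  have KK : ∀ (a : Fˣ) (α β : unitary F), φ (td α β) • g • inf = g • inf → dt (td α β) = dt (kk a) → ∀ {y s}, Vd y s →
      φ (kk a) • pt y s = pt (star (a : F) * α * star (star (a : F) * α) * y) (star (a : F) * α * s) := by
    intro a α β e1 e2 y s v
    have n : star (a : F) * α * star (star (a : F) * α) = a * star (a : F) := by
      rw [star_mul', star_star]; linear_combination a * star (a : F) * un1 α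
    rw [n]
    by_cases s0 : s = 0
    · subst s0
      obtain ⟨c, rfl⟩ := p0' v
      rw [mul_zero, ← nsm_val, p0, p0, ← cj_xu, mul_smul, mul_smul, inv_smul_eq_iff.2 (h.k_o a).symm]
    obtain ⟨A, h1, h2, h3⟩ := ex v s0
    have := star_ne_zero.2 a.ne_zero
    rw [p1 h1 h2 h3, p1 (A := kk a * A * (td α β)⁻¹) (by rw [map_mul, map_mul, h1, mul_one, map_inv, e2, mul_inv_cancel]),
      map_mul, map_mul, map_inv, mul_smul, mul_smul, inv_smul_eq_iff.2 e1.symm]
    · simp [td_inv, un_inv]; field_simp; linear_combination 2 * h2 + 2 * s * l * (A.c + A.d) * un1 α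
    · simp [td_inv, un_inv, ← h3]; field_simp; linear_combination 2 * (A.a + A.b) * un1 α
  have KL : ∀ (m : F) (m0 : m ≠ 0), star m = m → ∀ {y s}, Vd y s →
      φ (kk (.mk0 m m0)) • pt y s = pt (m * star m * y) (m * s) := fun m m0 m1 y s v => by
    simpa [m1] using KK (.mk0 m m0) 1 1 (by rw [td_one, map_one, one_smul])
      (by rw [td_one, map_one]; exact Subtype.ext (by simp [dt_val, m1, m0])) v
  have T : ∀ {y s}, Vd y s → φ (kk (-1)) • pt y s = pt y (-s) := fun v => by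
    rw [show (-1 : Fˣ) = .mk0 (-1) (by simp) from Units.ext rfl, KL (-1) (by simp) (by simp) v]; simp
  have i1 : ∀ {y s y' s'}, Vd y s → Vd y' s' → s ≠ 0 → s' ≠ 0 → pt y s = pt y' s' → y = y' ∧ s = s' :=
    fun {y s y' s'} v v' s0 s1 e => by
    obtain ⟨A, h1, h2, h3⟩ := ex v s0
    obtain ⟨B, k1, k2, k3⟩ := ex v' s1
    rw [p1 h1 h2 h3, p1 k1 k2 k3, ← inv_smul_eq_iff, ← mul_smul, ← map_inv, ← map_mul] at e
    obtain rfl := inv_mul_eq_one.1 (h.free (by rw [map_mul, map_inv, h1, k1, inv_mul_cancel]) e)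
    obtain rfl : s = s' := mul_right_cancel₀ l0 (mul_right_cancel₀ (right_ne_zero_of_mul_eq_one h2) (h2.trans k2.symm))
    exact ⟨h3.symm.trans k3, rfl⟩
  have i2 : ∀ {y s}, Vd y s → φ (kk (-1)) • pt y s = pt y s → s = 0 := fun {y s} v e => by_contra fun s0 =>
    s0 (mul_left_cancel₀ two_ne_zero (by
      linear_combination -(i1 v.neg v (neg_ne_zero.2 s0) s0 ((T v).symm.trans e)).2))
  have inj : ∀ {y s y' s'}, Vd y s → Vd y' s' → pt y s = pt y' s' → y = y' ∧ s = s' := fun {y s y' s'} v v' e => by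
    by_cases s0 : s = 0
    · subst s0
      obtain rfl := i2 v' (by rw [← e, T v, neg_zero])
      obtain ⟨c, rfl⟩ := p0' v
      obtain ⟨c', rfl⟩ := p0' v'
      rw [p0, p0, ← inv_smul_eq_iff, ← mul_smul] at e
      exact ⟨congrArg _ (h.xu_inj' (inv_mul_eq_one.1 (h.Qfr (mul_mem (inv_mem (h.le (xu_mem _))) (h.le (xu_mem _)))
        e))).symm, rfl⟩
    · exact i1 v v' s0 (by rintro rfl; exact s0 (i2 v (by rw [e, T v', neg_zero]))) e
  have ne : ∀ {y s}, Vd y s → pt y s ≠ inf := fun {y s} v e => by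
    obtain rfl := i2 v (by rw [e, h.k_inf])
    obtain ⟨c, rfl⟩ := p0' v
    exact h.o_ne (by rw [← smul_left_cancel_iff (φ (xu c)), ← p0, e, h.x_inf])
  have surj : ∀ ω, ω ≠ inf → ∃ y s, Vd y s ∧ ω = pt y s := fun ω n => by
    have := h.fr.fin
    have : Finite Ω := Nat.finite_of_card_ne_zero (by rw [h.idx]; omega)
    obtain ⟨_ | p, e⟩ := ((Nat.bijective_iff_injective_and_card (fun o : Option {p : F × F // Vd p.1 p.2} =>
      o.elim inf fun p => pt p.1.1 p.1.2)).2 ⟨by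
        rintro (_ | p) (_ | p') e
        exacts [rfl, (ne p'.2 e.symm).elim, (ne p.2 e).elim,
          congrArg _ (Subtype.ext (Prod.ext (inj p.2 p'.2 e).1 (inj p.2 p'.2 e).2))],
        by rw [Finite.card_option, card_Vd h.fr, h.idx]⟩).2 ω
    exacts [(n e.symm).elim, ⟨_, _, p.2, e.symm⟩]
  have od : ∀ u ∈ Q, orderOf u ∣ q ^ 3 := fun u hu => h.card ▸ Q.orderOf_dvd_natCard hu
  refine ⟨pt, two_ne_zero, h.fr.nt, inj, ne, surj, fun u => h.Qinf, fun v => p00 ▸ h.tr _ (ne v),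
    fun u hu e => h.Qfr hu (p00 ▸ e), fun u hu => h.odd.pow.of_dvd_nat (od u hu), fun h3 u hu => ?_, fun c hc => ?_,
    p00.symm, p00 ▸ h.ww2 _, fun {y s} v y0 => ?_, fun k k1 k2 => ?_,
    fun m m0 m1 => ⟨_, h.k_inf _, KL m m0 m1⟩⟩
  · obtain ⟨n, -, e⟩ := h.q_pow
    rw [(Nat.prime_dvd_prime_iff_eq h.prime_p Nat.prime_three).1 ((ringChar.spec F 3).1 (by exact_mod_cast h3))] at e
    exact ⟨n * 3, orderOf_dvd_iff_pow_eq_one.1 (by rw [pow_mul, ← e]; exact od u hu)⟩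
  · obtain ⟨c, rfl⟩ := p0' (Vd.of0 hc)
    refine ⟨_, h.le (xu_mem c), fun u hu => h.cen hu _ (xu_mem c), fun {y s} v => ?_⟩
    by_cases s0 : s = 0
    · subst s0
      obtain ⟨c', rfl⟩ := p0' v
      rw [p0, ← mul_smul, ← map_mul, xu_add, ← p0, add_comm]; rfl
    obtain ⟨A, h1, h2, h3⟩ := ex v s0
    rw [p1 h1 h2 h3, p1 (A := xu c * A) (by rw [map_mul, h1, dt_xu, mul_one]) (by simpa using h2)
      (by simp; linear_combination h3 + c * h2), map_mul, mul_smul]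
  · by_cases s0 : s = 0
    · subst s0
      obtain ⟨c, rfl⟩ := p0' v
      obtain ⟨c', e⟩ := p0' (by simpa using v.inv y0)
      obtain ⟨d, a, k⟩ := eq_bor (A := ww⁻¹ * (xu c')⁻¹ * (ww * xu c * ww)) (by simp [sk, e, y0])
      rw [zero_div, ← e, p0, p0, ← mul_smul, ← mul_smul, ← map_mul, ← map_mul,
        show ww * xu c * ww = xu c' * (ww * (xu d * kk a)) by rw [← k]; group]
      simp only [map_mul, mul_smul, h.k_inf, h.x_inf]
    obtain ⟨A, h1, h2, h3⟩ := ex v s0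
    rw [p1 h1 h2 h3, p1 (A := ww * A * ww⁻¹) (by rw [map_mul, map_mul, h1, mul_one, map_inv, mul_inv_cancel])
      (by simp; field_simp; linear_combination h3) (by simp; field_simp; linear_combination h2),
      ww_inv, map_mul, map_mul, mul_smul, mul_smul, h.w_om]
  · rw [p00] at k2
    obtain ⟨a, rfl⟩ := h.mem_K k1 k2
    refine ⟨h.nrm (kk_mem a), ?_⟩
    have n : φ (kk (-1)) • φ (kk a) • g • inf ≠ φ (kk a) • g • inf := fun e => by
      rw [← mul_smul, (kk_comm _ _).eq, mul_smul, smul_left_cancel_iff] at e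
      have := congrArg U2.a (h.free (Subtype.ext (by simp [dt_val])) e)
      exact two_ne_zero (α := F) (by simp at this; linear_combination -this)
    obtain ⟨y, s, v, e⟩ := surj (φ (kk a) • g • inf) fun e => n (by rw [e, h.k_inf])
    obtain ⟨A, h1, h2, h3⟩ := ex v (by rintro rfl; exact n (by rw [e, T v, neg_zero]))
    rw [p1 h1 h2 h3, ← inv_smul_eq_iff, ← mul_smul, ← map_inv, ← map_mul] at e
    obtain ⟨α, β, k⟩ := (h.stab e).1
    exact ⟨_, mul_ne_zero (star_ne_zero.2 a.ne_zero) (un_ne α),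
      KK a α β (k ▸ e) (by rw [← k, map_mul, map_inv, h1, inv_one, one_mul])⟩

end TD

/-- Identification of `PSU₃(q)` from the doubly transitive action. -/
theorem ident [IsSimpleGroup G] (h : Hy q φ g) (le : RU φ ≤ Q) (cen : Q ≤ C[RU φ]) (card : Nat.card Q = q ^ 3)
    (nrm : Kt φ ≤ N[Q]) (fix : ∀ y ∈ Q, Commute y (φ (td (-1) (-1))) → y ∈ RU φ) (idx : (N[RU φ]).index = q ^ 3 + 1)
    (two : ∀ b ∈ N[RU φ], φ ww * b * (φ ww)⁻¹ ∈ N[RU φ] → b ∈ Kt φ)
    (bru : ∀ x, x ∈ N[RU φ] ∨ ∃ y ∈ Q, ∃ b ∈ N[RU φ], x = y * φ ww * b) : Nonempty (G ≃* Cfsg.PSU 3 F q) := by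
  have st : ∀ x : G, x • ((1 : G) : G ⧸ N[RU φ]) = (1 : G) ↔ x ∈ N[RU φ] := fun x => by
    rw [MulAction.Quotient.smul_mk, QuotientGroup.eq]; simp
  obtain ⟨pt, c⟩ := TD.exists_co (inf := ((1 : G) : G ⧸ N[RU φ])) ⟨h, le, cen, card, nrm, fix, two, st, fun ω n => by
    obtain ⟨x, rfl⟩ := QuotientGroup.mk_surjective ω
    have e : (x : G ⧸ N[RU φ]) = x • ((1 : G) : G ⧸ N[RU φ]) := by simp
    obtain m | ⟨y, hy, b, hb, rfl⟩ := bru x
    · exact (n (e.trans ((st x).2 m))).elim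
    · exact ⟨y, hy, by rw [e, mul_smul, (st b).2 hb, mul_smul]⟩, idx⟩
  exact c.psu h.fr

end Cfsg.Agent.B85I
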