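import Cfsg.Agent.B85I.Ar
import Cfsg.Agent.B85C.H

/-! # The number of involutions modulo powers of two -/

set_option autoImplicit false
set_option linter.unusedSectionVars false

namespace Cfsg.Agent.B85I

open Cfsg Cfsg.Agent.GT Cfsg.Agent.BS Cfsg.Agent.B85C Subgroup Finset
open scoped Classical

variable {H C K X G : Type*} [Group H] [CommGroup C] [CommGroup K] [CommGroup X] [Group G]
  [Fintype H] [Fintype C] [Fintype K] [Fintype X] [Fintype G] {m : Mo H C K X} {φ : H →* G} {g : G}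

theorem card_inv (h : Hy m φ g) :
    #{s ∈ ({s | IsConj (φ (m.dg (m.e, m.e))) s} : Finset G) | Commute (φ (m.dg (m.e, m.e))) s} = m.q * (m.q - 1) + 1 := by
  have Q := h.q3
  have c : #{A : H | IsConj (m.dg (1, m.e)) A} = m.q * (m.q - 1) := by
    have := m.q3
    rw [B84H.card_cl, ← Nat.cast_inj (R := ℂ), m.index_u, Nat.cast_mul, Nat.cast_sub (by omega), Nat.cast_one]
  have d : ∀ B : H, m.det (B * m.dg (1, m.e) * B⁻¹) = m.e := fun B => by simp [m.det_dg]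
  rw [← c, ← card_image_of_injOn (f := φ), ← card_insert_of_notMem (a := φ (m.dg (m.e, m.e)))]
  · congr 1
    ext s
    simp only [mem_filter, mem_univ, true_and, mem_insert, mem_image]
    constructor
    · rintro ⟨e1, e2⟩
      obtain ⟨A, rfl⟩ := h.cent.1 e2.symm
      obtain ⟨c, e⟩ := isConj_iff.1 e1
      exact (h.invol (by rw [← e, conj_mul, Q.tt, mul_one, mul_inv_cancel]) (by simpa [← e] using Q.t1)).imp_right
        fun ⟨B, n⟩ => ⟨_, isConj_iff.2 ⟨B, rfl⟩, by rw [n, map_mul, map_mul, map_inv]⟩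
    · rintro (rfl | ⟨A, e, rfl⟩)
      exacts [⟨.refl _, .refl _⟩, ⟨Q.cu.trans (φ.map_isConj e), (h.cent.2 ⟨A, rfl⟩).symm⟩]
  · simp only [mem_filter, mem_univ, true_and, mem_image, isConj_iff]
    rintro ⟨_, ⟨B, rfl⟩, e⟩
    rw [map_mul, map_mul, map_inv, mul_inv_eq_iff_eq_mul, ← (h.cent.2 ⟨B, rfl⟩).eq, mul_right_inj] at e
    exact Q.ne e
  · intro A hA B hB e
    obtain ⟨A, rfl⟩ := isConj_iff.1 (mem_filter.1 hA).2
    obtain ⟨B, rfl⟩ := isConj_iff.1 (mem_filter.1 hB).2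
    exact mul_inv_eq_one.1 (h.ker_det (by rw [map_mul φ, e, map_inv, mul_inv_cancel])
      (by rw [map_mul, map_inv, d, d, mul_inv_cancel]))

theorem mod8 (h : Hy m φ g) (h3 : m.q % 4 = 3) :
    (8 : ℤ) ∣ (C1[φ (m.dg (m.e, m.e))]).index - 1 - m.q * (m.q - 1) := by
  obtain ⟨k, hk⟩ := m.cycK.exists_generator
  have ok : orderOf k = (m.q + 1) * (m.q - 1) := (orderOf_eq_card_of_forall_mem_zpowers hk).trans m.cK
  obtain ⟨r, hr⟩ : 8 ∣ orderOf k := ok ▸ mul_dvd_mul (show 4 ∣ m.q + 1 by omega) (show 2 ∣ m.q - 1 by omega)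
  have r0 : 0 < r := Nat.pos_of_mul_pos_left (hr ▸ orderOf_pos k)
  have e : (k ^ r) ^ 2 ^ 2 = m.jj m.e := B84C.inv_uniq
    (by rw [← pow_add, ← pow_mul, mul_comm, show 2 ^ 2 + 2 ^ 2 = 8 from rfl, ← hr, pow_orderOf_eq_one])
    (by rw [← pow_mul]; exact pow_ne_one_of_lt_orderOf (by omega) (by omega)) (by rw [← map_mul, m.ee, map_one])
    (fun e => m.e1 (m.jj_inj (e.trans (map_one _).symm))) (hk _) (hk _)
  have e' : φ (m.kk (k ^ r)) ^ 2 ^ 2 = φ (m.dg (m.e, m.e)) := by rw [← map_pow, ← map_pow, e, m.kj]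
  have := semireg tt h.t1_ne (card_inv h) e'
  rw [orderOf_eq_prime_pow (p := 2) (n := 2) (by rw [e']; exact h.t1_ne) (by rw [pow_succ, pow_mul, e', sq, tt]),
    Nat.cast_mul, Nat.cast_sub (by omega)] at this
  exact_mod_cast this

theorem odd_ker (h : Hy m φ g) : Odd (Nat.card φ.ker) := Nat.not_even_iff_odd.1 fun e => by
  obtain ⟨A, hA, o⟩ := exists_mem_orderOf_eq Nat.prime_two (even_iff_two_dvd.1 e)
  have := h.odd_of (A := A) (by rw [show φ A = 1 from hA, orderOf_one]; exact odd_one)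
  rw [o] at this
  exact absurd this (by decide)

theorem two_T (h : Hy m φ g) (h4 : m.q % 4 = 1) {a b : C} {k : ℕ} (e : φ (m.dg (a, b)) ^ 2 ^ k = 1) :
    φ (m.dg (a, b)) = 1 ∨ φ (m.dg (a, b)) = φ (m.dg (m.e, m.e)) ∨ φ (m.dg (a, b)) = φ (m.dg (1, m.e)) ∨
      φ (m.dg (a, b)) = φ (m.dg (m.e, m.e)) * φ (m.dg (1, m.e)) := by
  obtain ⟨r, hr⟩ : ∃ r, m.q + 1 = 2 * (2 * r + 1) := ⟨m.q / 4, by omega⟩
  have s : ∀ c : C, c ^ (2 * r + 1) = 1 ∨ c ^ (2 * r + 1) = m.e := fun c =>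
    m.sqC (by rw [← pow_add, ← two_mul, ← hr, m.powC])
  have y2 : φ (m.dg (a, b)) ^ 2 = 1 := by
    have : φ (m.dg (a, b)) ^ (m.q + 1) = 1 := by rw [← map_pow, ← map_pow, Prod.pow_mk, m.powC, m.powC, dg_one, map_one]
    exact orderOf_dvd_iff_pow_eq_one.1 (((Nat.coprime_two_left.2 (odd_two_mul_add_one r)).pow_left k).coprime_dvd_left
      (orderOf_dvd_of_pow_eq_one e) |>.dvd_of_dvd_mul_right (hr ▸ orderOf_dvd_of_pow_eq_one this))
  rw [show φ (m.dg (a, b)) = φ (m.dg (a ^ (2 * r + 1), b ^ (2 * r + 1))) by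
    rw [← Prod.pow_mk, map_pow, map_pow, pow_succ, pow_mul, y2, one_pow, one_mul], h.t3]
  rcases s a with e1 | e1 <;> rcases s b with e2 | e2 <;> simp [e1, e2, dg_one]

theorem H1 (h : Hy m φ g) (h4 : m.q % 4 = 1) {k : ℕ} (hk : 2 ^ k ∣ m.q - 1) :
    (4 * 2 ^ k : ℤ) ∣ (C1[φ (m.dg (m.e, m.e))]).index - 1 + m.q * (m.q - 1) := by
  have Q := h.q3
  have q3 := m.q3
  obtain ⟨S, hS, le⟩ := exists_syl_ge (M := C1[φ (m.dg (m.e, m.e))]) (Q := zpowers (φ (m.dg (m.e, m.e)))) Nat.prime_two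
    (PG.isPGroup_zpowers_of_pow_eq_one (k := 1) (by rw [pow_one, sq, Q.tt])) (zpowers_le.2 (self_mem_cent1 _))
  have := B84H.two_adic Q.tt Q.t1 (fun s => h.conj_t) (fun s y s1 s2 s3 s4 y1 y2 k e => ?_) (card_inv h)
    (Dvd.dvd.mul_left (by omega) _) (syl_isPGroup Nat.prime_two hS) (le (mem_zpowers _)) hS.le
  · rw [Nat.cast_mul, Nat.cast_sub (by omega)] at this
    refine Dvd.dvd.trans ?_ (by exact_mod_cast this)
    have c := h.card_H
    rw [m.card_H, m.cK] at c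
    have d : 2 ^ (k + 2) ∣ Nat.card C1[φ (m.dg (m.e, m.e))] := (Nat.Coprime.pow_left _ (Nat.coprime_two_left.2
      (odd_ker h))).dvd_of_dvd_mul_right (by
        rw [c, show 2 ^ (k + 2) = 2 * (2 * 2 ^ k) by ring]
        exact mul_dvd_mul (by omega) ((mul_dvd_mul (by omega) hk).mul_right _))
    have := hS.dvd_card (piNat_single_pow Nat.prime_two _) d
    rw [pow_add, mul_comm] at this
    exact_mod_cast this
  obtain ⟨A, rfl⟩ := h.cent.1 s4
  obtain ⟨B, n⟩ := (h.invol s1 s2).resolve_left s3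
  have c := TT.commute_iff_conj.1 (h.cent.2 ⟨B, rfl⟩)
  obtain ⟨y, rfl⟩ : ∃ z, y = φ B * z * (φ B)⁻¹ := ⟨(φ B)⁻¹ * y * φ B, by group⟩
  rw [n, TT.commute_conj_iff] at y2
  rw [← c, TT.commute_conj_iff] at y1
  obtain ⟨a, b, rfl⟩ := h.cent_U.1 ⟨y1, y2⟩
  rw [conj_pow, conj_eq_one_iff] at e
  rw [n, ← c, conj_mul]
  rcases two_T h h4 e with e | e | e | e <;> simp [e]

/-- the second solution of the arithmetic does not occur -/
theorem kill (h : Hy m φ g) :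
    ((C1[φ (m.dg (m.e, m.e))]).index : ℤ) ≠ m.q ^ 2 * (m.q ^ 2 + m.q - 1) := fun e => by
  have := m.q3
  rcases Nat.odd_mod_four_iff.1 (Nat.odd_iff.1 m.odd) with q | q
  · exact kill1 q (by omega) fun k hk => e ▸ H1 h q hk
  · exact kill3 (by omega) (e ▸ mod8 h q)

end Cfsg.Agent.B85I
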