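import Cfsg.Agent.Cl.UStd
import Cfsg.Agent.B84.Four

/-! # A doubly transitive group in unitary coordinates: the product of the root group -/

set_option autoImplicit false
set_option linter.unusedSectionVars false

namespace Cfsg.Agent.B85I

open Cfsg.Agent.GT Cfsg.Agent.Cl.Uni Subgroup

variable {F : Type*} [Field F] [StarRing F]

/-- the coordinates of an isotropic point -/
def Vd (y s : F) : Prop := y + star y + s * star s = 0

theorem Vd.zero : Vd (0 : F) 0 := by simp [Vd]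

theorem Vd.add {y s c : F} (h : Vd y s) (hc : c + star c = 0) : Vd (y + c) s := by
  unfold Vd at *; rw [star_add]; linear_combination h + hc

theorem Vd.sub {y y' s : F} (h : Vd y s) (h' : Vd y' s) : y - y' + star (y - y') = 0 := by
  unfold Vd at *; rw [star_sub]; linear_combination h - h'

theorem Vd.neg {y s : F} (h : Vd y s) : Vd y (-s) := by
  unfold Vd at *; rw [star_neg]; linear_combination h

theorem Vd.conj {y s : F} (h : Vd y s) : Vd (star y) s := by
  unfold Vd at *; rw [star_star]; linear_combination h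

theorem Vd.smul {y s : F} (h : Vd y s) (m : F) : Vd (m * star m * y) (m * s) := by
  unfold Vd at *; simp only [star_mul', star_star]; linear_combination m * star m * h

theorem Vd.inv {y s : F} (h : Vd y s) (y0 : y ≠ 0) : Vd y⁻¹ (s / y) := by
  have := star_ne_zero.2 y0
  unfold Vd at *; rw [star_inv₀, star_div₀]; field_simp; linear_combination h

theorem Vd.ne {y s : F} (h : Vd y s) (s0 : s ≠ 0) : y ≠ 0 := by
  rintro rfl
  simp [Vd, s0] at h

theorem Vd.mul {y s y' s' : F} (h : Vd y s) (h' : Vd y' s') : Vd (y + y' - star s * s') (s + s') := by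
  unfold Vd at *; simp only [star_sub, star_add, star_mul', star_star]; linear_combination h + h'

theorem Vd.of0 {c : F} (hc : c + star c = 0) : Vd c 0 := by simpa [Vd] using hc

theorem Vd.to0 {c : F} (hc : Vd c 0) : c + star c = 0 := by simpa [Vd] using hc

theorem Vd.half (two : (2 : F) ≠ 0) (s : F) : Vd (-(s * star s) / 2) s := by
  unfold Vd; simp only [star_div₀, star_neg, star_mul', star_star, star_ofNat]; field_simp; ring

variable {G Ω : Type*} [Group G] [MulAction G Ω]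

/-- A group acting on points with unitary coordinates. -/
structure Co (inf : Ω) (pt : F → F → Ω) (Q : Subgroup G) (w : G) : Prop where
  two : (2 : F) ≠ 0
  nt : NT F
  inj : ∀ {y s y' s'}, Vd y s → Vd y' s' → pt y s = pt y' s' → y = y' ∧ s = s'
  ne : ∀ {y s}, Vd y s → pt y s ≠ inf
  surj : ∀ ω, ω ≠ inf → ∃ y s, Vd y s ∧ ω = pt y s
  Qinf : ∀ u ∈ Q, u • inf = inf
  Qtr : ∀ {y s}, Vd y s → ∃ u ∈ Q, u • pt 0 0 = pt y s
  Qfr : ∀ u ∈ Q, u • pt 0 0 = pt 0 0 → u = 1
  Qodd : ∀ u ∈ Q, Odd (orderOf u)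
  Q3 : (3 : F) = 0 → ∀ u ∈ Q, ∃ k, u ^ 3 ^ k = 1
  X : ∀ c, c + star c = 0 → ∃ x ∈ Q, (∀ u ∈ Q, x * u = u * x) ∧ ∀ {y s}, Vd y s → x • pt y s = pt (y + c) s
  w1 : w • inf = pt 0 0
  w2 : w • pt 0 0 = inf
  w3 : ∀ {y s}, Vd y s → y ≠ 0 → w • pt y s = pt y⁻¹ (s / y)
  K : ∀ k : G, k • inf = inf → k • pt 0 0 = pt 0 0 → k ∈ N[Q] ∧
    ∃ m, m ≠ 0 ∧ ∀ {y s}, Vd y s → k • pt y s = pt (m * star m * y) (m * s)
  KL : ∀ m, m ≠ 0 → star m = m → ∃ k : G, k • inf = inf ∧
    ∀ {y s}, Vd y s → k • pt y s = pt (m * star m * y) (m * s)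

namespace Co

variable {inf : Ω} {pt : F → F → Ω} {Q : Subgroup G} {w u u' : G} {y s y' s' : F} (h : Co inf pt Q w)
include h

theorem uniq (hu : u ∈ Q) (hu' : u' ∈ Q) (e : u • pt 0 0 = u' • pt 0 0) : u = u' :=
  (inv_mul_eq_one.1 (h.Qfr _ (mul_mem (inv_mem hu') hu) (by rw [mul_smul, e, inv_smul_smul]))).symm

theorem val (hu : u ∈ Q) (v : Vd y s) : ∃ y' s', Vd y' s' ∧ u • pt y s = pt y' s' :=
  h.surj _ fun e => h.ne v (by rw [← smul_left_cancel_iff u, e, h.Qinf u hu])

theorem exists_eps : (∃ ε : F → F, ∀ {u y s}, u ∈ Q → Vd y s → u • pt 0 0 = pt y s →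
    Vd (ε s - y) (-s) ∧ u⁻¹ • pt 0 0 = pt (ε s - y) (-s)) ∧
    ((3 : F) = 0 → ∃ u ∈ Q, u * u = u⁻¹ ∧ ∃ y s, Vd y s ∧ s ≠ 0 ∧ u • pt 0 0 = pt y s) := by
  obtain ⟨t, t1, t2⟩ := h.KL (-1) (by simp) (by simp)
  simp only [star_neg, star_one, neg_mul, mul_neg, one_mul, neg_neg] at t2
  have t0 : t • pt 0 0 = pt 0 0 := by rw [t2 Vd.zero, neg_zero]
  have nQ := fun x => (mem_normalizer_iff.1 (h.K t t1 t0).1 x).1
  have σ : ∀ {u y s}, Vd y s → u • pt 0 0 = pt y s → (t * u * t⁻¹) • pt 0 0 = pt y (-s) := fun v e => by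
    rw [mul_smul, inv_smul_eq_iff.2 t0.symm, mul_smul, e, t2 v]
  have J : ∀ s : F, ∃ η, Vd η s ∧ ∃ j ∈ Q, j • pt 0 0 = pt η s ∧ t * j * t⁻¹ = j⁻¹ := fun s => by
    have v := Vd.half h.two s
    obtain ⟨u, hu, e⟩ := h.Qtr v
    have uu : t * (t * u * t⁻¹) * t⁻¹ = u := h.uniq (nQ _ (nQ _ hu)) hu (by rw [σ v.neg (σ v e), neg_neg, e])
    have hz := mul_mem (inv_mem hu) (nQ _ hu)
    obtain ⟨n, hn⟩ := B84.odd_sqrt (h.Qodd _ hz)
    have zi : t * (u⁻¹ * (t * u * t⁻¹)) * t⁻¹ = (u⁻¹ * (t * u * t⁻¹))⁻¹ := by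
      rw [← conj_mul, uu]; group
    have ai : t * (u⁻¹ * (t * u * t⁻¹)) ^ n * t⁻¹ = ((u⁻¹ * (t * u * t⁻¹)) ^ n)⁻¹ := by rw [← conj_pow, zi, inv_pow]
    have ha := pow_mem hz n
    generalize (u⁻¹ * (t * u * t⁻¹)) ^ n = a at hn ai ha
    have fx : t * (u * a) * t⁻¹ = u * a := by
      rw [← conj_mul, ai, mul_inv_eq_iff_eq_mul, mul_assoc u, hn, mul_inv_cancel_left]
    obtain ⟨c, s', v', e'⟩ := h.val (mul_mem hu ha) Vd.zero
    have s0 : s' = 0 := by
      have := (h.inj v'.neg v' (by rw [← σ v' e', fx, e'])).2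
      exact (mul_eq_zero.1 (show 2 * s' = 0 by linear_combination -this)).resolve_left h.two
    subst s0
    obtain ⟨x, hx, x1, x2⟩ := h.X c v'.to0
    have : u * a = x := h.uniq (mul_mem hu ha) hx (by rw [e', x2 Vd.zero, zero_add])
    have v2 := v.add (c := -c) (by rw [star_neg]; linear_combination -v'.to0)
    have e2 : a⁻¹ • pt 0 0 = pt (-(s * star s) / 2 + -c) s := by
      rw [← smul_left_cancel_iff x, x2 v2, ← mul_smul, x1 _ (inv_mem ha), ← x1 _ (inv_mem ha), ← this,
        mul_inv_cancel_right, e, neg_add_cancel_right]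
    exact ⟨_, v2, a⁻¹, inv_mem ha, e2, by rw [← conj_inv, ai]⟩
  choose η v j hj e1 e2 using J
  refine ⟨⟨fun s => 2 * η s, fun {u y s} hu v' e => ?_⟩, fun h3 => ?_⟩
  swap
  · classical
    have ex := h.Q3 h3 _ (hj 1)
    obtain ⟨k, hk⟩ : ∃ k, Nat.find ex = k + 1 := Nat.exists_eq_succ_of_ne_zero fun e => by
      have := Nat.find_spec ex
      rw [e, pow_zero, pow_one] at this
      exact one_ne_zero (h.inj (v 1) Vd.zero (by rw [← e1, this, one_smul])).2
    have a1 : j 1 ^ 3 ^ k ≠ 1 := Nat.find_min ex (by omega)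
    have a3 := Nat.find_spec ex
    rw [hk, pow_succ, pow_mul, pow_three'] at a3
    have ai : t * j 1 ^ 3 ^ k * t⁻¹ = (j 1 ^ 3 ^ k)⁻¹ := by rw [← conj_pow, e2, inv_pow]
    have ha := pow_mem (hj 1) (3 ^ k)
    generalize j 1 ^ 3 ^ k = a at a1 a3 ai ha
    obtain ⟨y, s, v', e⟩ := h.val ha Vd.zero
    refine ⟨a, ha, eq_inv_of_mul_eq_one_left a3, y, s, v', ?_, e⟩
    rintro rfl
    have := h.uniq (inv_mem ha) ha (by rw [← ai, σ v' e, e, neg_zero])
    exact a1 (by rw [← a3]; nth_rewrite 2 [← this]; group)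
  obtain ⟨x, hx, x1, x2⟩ := h.X _ (v'.sub (v s))
  have : u = x * j s := h.uniq hu (mul_mem hx (hj s)) (by rw [mul_smul, e1, x2 (v s), e, add_sub_cancel])
  have v2 : Vd (2 * η s - y) (-s) := by
    convert (v s).neg.add ((v s).sub v') using 1; ring
  refine ⟨v2, ?_⟩
  rw [this, x1 _ (hj s), mul_inv_rev, mul_smul, ← e2, σ (v s) (e1 s), inv_smul_eq_iff, x2 v2]
  congr 1; ring

/-- the braid relation -/
theorem braid {ε : F → F} (hε : ∀ {u y s}, u ∈ Q → Vd y s → u • pt 0 0 = pt y s →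
    Vd (ε s - y) (-s) ∧ u⁻¹ • pt 0 0 = pt (ε s - y) (-s)) (v : Vd y s) (s0 : s ≠ 0) :
    ∃ u ∈ Q, ∃ u1 ∈ Q, ∃ u2 ∈ Q, ∃ (k : G) (m : F), m ≠ 0 ∧ u • pt 0 0 = pt y s ∧
      u1 • pt 0 0 = pt (ε s - y)⁻¹ (-s / (ε s - y)) ∧ u2 • pt 0 0 = pt y⁻¹ (s / y) ∧
      (∀ {y s}, Vd y s → k • pt y s = pt (m * star m * y) (m * s)) ∧ k * u2⁻¹ * w * u = w * u1⁻¹ * w ∧
      (ε (-s / (ε s - y)) - (ε s - y)⁻¹)⁻¹ = m * star m * (ε (s / y) - y⁻¹) ∧
      s / (ε s - y) / (ε (-s / (ε s - y)) - (ε s - y)⁻¹) = -(m * (s / y)) := by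
  obtain ⟨u, hu, e⟩ := h.Qtr v
  obtain ⟨v', e'⟩ := hε hu v e
  have y0 := v.ne s0
  have y1 := v'.ne (neg_ne_zero.2 s0)
  obtain ⟨u1, hu1, e1⟩ := h.Qtr (v'.inv y1)
  obtain ⟨v1, e1'⟩ := hε hu1 (v'.inv y1) e1
  obtain ⟨u2, hu2, e2⟩ := h.Qtr (v.inv y0)
  obtain ⟨v2, e2'⟩ := hε hu2 (v.inv y0) e2
  have i := fun u hu => h.Qinf u⁻¹ (inv_mem hu)
  have y2 := v1.ne (neg_ne_zero.2 (div_ne_zero (neg_ne_zero.2 s0) y1))
  obtain ⟨-, m, m0, hm⟩ := h.K (w * u1⁻¹ * w * u⁻¹ * w⁻¹ * u2)
    (by simp only [mul_smul, h.Qinf u2 hu2, inv_smul_eq_iff.2 h.w2.symm, e', h.w3 v' y1, inv_smul_eq_iff.2 e1.symm, h.w2])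
    (by simp only [mul_smul, e2, inv_smul_eq_iff.2 (h.w3 v y0).symm, inv_smul_eq_iff.2 e.symm, h.w2, i u1 hu1, h.w1])
  have k := hm v2
  rw [← e2', mul_smul, smul_inv_smul, mul_smul, inv_smul_eq_iff.2 h.w1.symm, mul_smul, i u hu, mul_smul, h.w1,
    mul_smul, e1', h.w3 v1 y2] at k
  obtain ⟨k1, k2⟩ := h.inj (v1.inv y2) (v2.smul m) k
  refine ⟨u, hu, u1, hu1, u2, hu2, _, m, m0, e, e1, e2, hm, by group, k1, ?_⟩
  rw [← mul_neg, ← k2, neg_div, neg_neg]

theorem card_zero [Fintype F] {p : F → Prop} [DecidablePred p] (hp : ∀ v c, star c = -c → (p (v + c) ↔ p v)) (a : F) :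
    ∑ v with p v, a = 0 := by
  obtain ⟨i, i0, i1⟩ := h.nt.exists_delta
  have : ∑ v with p v, (v + i) = ∑ v with p v, v :=
    Finset.sum_equiv (Equiv.addRight i) (fun v => by simp [hp v i i1]) fun _ _ => rfl
  rw [Finset.sum_add_distrib, add_eq_left, Finset.sum_const, nsmul_eq_mul] at this
  rw [Finset.sum_const, nsmul_eq_mul, (mul_eq_zero.1 this).resolve_right i0, zero_mul]

/-- inversion in the root group -/
theorem inv_std [Finite F] (hu : u ∈ Q) (v : Vd y s) (e : u • pt 0 0 = pt y s) :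
    u⁻¹ • pt 0 0 = pt (star y) (-s) := by
  classical
  have := Fintype.ofFinite F
  obtain ⟨⟨ε, hε⟩, h3⟩ := h.exists_eps
  suffices H : ∀ s, ε s = -(s * star s) by
    rw [(hε hu v e).2, H]; congr 1; unfold Vd at v; linear_combination -v
  have tr : ∀ s, star (ε s) = -2 * (s * star s) - ε s := fun s => by
    have v := Vd.half h.two s
    obtain ⟨u, hu, e⟩ := h.Qtr v
    have := (hε hu v e).1
    unfold Vd at v this
    rw [star_sub, star_neg s] at this
    linear_combination this + v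
  have eq : ∀ m s, m ≠ 0 → star m = m → ε (m * s) = m * m * ε s := fun m s m0 m1 => by
    have v := Vd.half h.two s
    obtain ⟨u, hu, e⟩ := h.Qtr v
    obtain ⟨k, k1, k2⟩ := h.KL m m0 m1
    have k0 : k • pt 0 0 = pt 0 0 := by rw [k2 Vd.zero, mul_zero, mul_zero]
    have m2 := (mem_normalizer_iff.1 (h.K k k1 k0).1 u).1 hu
    obtain ⟨v1, e1⟩ := hε hu v e
    obtain ⟨v2, e2⟩ := hε m2 (v.smul m) (by rw [mul_smul, inv_smul_eq_iff.2 k0.symm, mul_smul, e, k2 v])
    rw [conj_inv, mul_smul, inv_smul_eq_iff.2 k0.symm, mul_smul, e1, k2 v1] at e2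
    have := (h.inj (v1.smul m) v2 e2).1
    rw [m1] at this
    linear_combination -this
  let E : F → F := fun s => ε s / (s * star s) + 1
  have E1 : ∀ m s, m ≠ 0 → star m = m → E (m * s) = E s := fun m s m0 m1 => by
    simp only [E, eq m s m0 m1, star_mul', m1]
    rw [show m * s * (m * star s) = m * m * (s * star s) by ring, mul_div_mul_left _ _ (mul_ne_zero m0 m0)]
  have E2 : ∀ {y s}, Vd y s → s ≠ 0 → E (s / y) + E (s / (ε s - y)) + E s = 0 := fun {y s} v s0 => by
    obtain ⟨u, hu, u1, hu1, u2, hu2, k, m, m0, e, e1, e2, -, -, k1, k2⟩ := h.braid hε v s0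
    have v' := (hε hu v e).1
    have y0 := v.ne s0
    have y1 := v'.ne (neg_ne_zero.2 s0)
    have y2 := (hε hu1 (v'.inv y1) e1).1.ne (neg_ne_zero.2 (div_ne_zero (neg_ne_zero.2 s0) y1))
    have e4 : ε (-s / (ε s - y)) = ε (s / (ε s - y)) := by
      rw [neg_div, ← neg_one_mul, eq _ _ (by simp) (by simp)]; ring
    have k3 := congrArg star k2
    have t1 := tr (s / (ε s - y))
    rw [e4] at k1 k2 k3 y2
    have y3 := star_ne_zero.2 y2
    simp only [star_div₀, star_neg, star_mul', star_sub (ε (s / (ε s - y))), star_inv₀, t1] at k3 y3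
    simp only [E, star_div₀]
    have hy : ε s = (ε s - y) + y := by ring
    unfold Vd at v v'
    rw [star_neg] at v'
    generalize ε s - y = z at *
    have := star_ne_zero.2 y0
    have := star_ne_zero.2 y1
    have := star_ne_zero.2 s0
    have := star_ne_zero.2 m0
    have k4 : ε (s / y) = (ε (s / z) - z⁻¹)⁻¹ / (m * star m) + y⁻¹ := by rw [k1]; field_simp; ring
    have k5 : m = -(y / z / (ε (s / z) - z⁻¹)) := by
      refine mul_right_cancel₀ (div_ne_zero s0 y0) ?_
      rw [← neg_neg (m * _), ← k2]; field_simp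
    have k6 : star m = -(star y / star z / (-2 * (s / z * (star s / star z)) - ε (s / z) - (star z)⁻¹)) := by
      refine mul_right_cancel₀ (div_ne_zero (star_ne_zero.2 s0) (star_ne_zero.2 y0)) ?_
      rw [← neg_neg (star m * _), ← k3]; field_simp
    rw [k4, k6, k5, hy]
    generalize hb : -2 * (s / z * (star s / star z)) - ε (s / z) - (star z)⁻¹ = b at *
    generalize ha : ε (s / z) - z⁻¹ = a at *
    rw [show ε (s / z) = -2 * (s / z * (star s / star z)) - (star z)⁻¹ - b by rw [← hb]; ring]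
    field_simp
    linear_combination v
  obtain ⟨i, i0, i1⟩ := h.nt.exists_delta
  have E3 : ∀ s, s ≠ 0 → E (s / i) = E 0 - ∑ v, E v := fun s s0 => by
    have n1 := star_ne_zero.2 s0
    have n0 := mul_ne_zero s0 n1
    have a1 : ∑ v, E (s / v) = ∑ v, E v :=
      Equiv.sum_comp (Function.Involutive.toPerm (fun v => s / v) fun v => div_div_cancel₀ s0) E
    have t1 : ∀ v : F, -(v + star v) * ε s / (s * star s) - v + star (-(v + star v) * ε s / (s * star s) - v) =
        v + star v := fun v => by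
      simp only [star_sub, star_div₀, star_mul', star_neg, star_add, star_star, tr]; field_simp; ring
    have a2 : ∑ v with v + star v ≠ 0, E (s / v) = 0 := by
      have b : ∑ v with v + star v ≠ 0, E (s / (-(v + star v) * ε s / (s * star s) - v)) =
          ∑ v with v + star v ≠ 0, E (s / v) :=
        Finset.sum_equiv (Function.Involutive.toPerm (fun v => -(v + star v) * ε s / (s * star s) - v) fun v => by
          simp only [t1]; ring) (fun v => by
          simp only [Finset.mem_filter, Finset.mem_univ, true_and]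
          exact (t1 v).symm ▸ Iff.rfl) fun _ _ => rfl
      refine (mul_eq_zero.1 (Eq.trans ?_ (h.card_zero (p := fun v => v + star v ≠ 0) (fun v c e => by
        rw [star_add, e, show v + c + (star v + -c) = v + star v by ring]) (-E s)))).resolve_left h.two
      rw [two_mul]
      nth_rewrite 2 [← b]
      rw [← Finset.sum_add_distrib]
      refine Finset.sum_congr rfl fun v hv => ?_
      replace hv := (Finset.mem_filter.1 hv).2
      have l0 : -(v + star v) / (s * star s) ≠ 0 := div_ne_zero (neg_ne_zero.2 hv) n0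
      have l1 : star (-(v + star v) / (s * star s)) = -(v + star v) / (s * star s) := by
        simp only [star_div₀, star_mul', star_neg, star_add, star_star]; ring
      have := E2 (y := v / (-(v + star v) / (s * star s))) (s := s) (by
        unfold Vd; rw [star_div₀, l1]; field_simp; ring) s0
      rw [← E1 _ (s / v) l0 l1, ← E1 _ (s / (_ - v)) l0 l1, eq_neg_iff_add_eq_zero, ← this]
      congr 3
      · field_simp
      · rw [← mul_div_mul_left s (ε s - _) l0, mul_sub, mul_div_cancel₀ _ l0, ← mul_div_assoc, div_mul_eq_mul_div _ _ (ε s)]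
    have a3 : ∑ v with ¬v + star v ≠ 0, E (s / v) = E 0 - E (s / i) := by
      refine (sub_zero _).symm.trans ((congrArg _ (h.card_zero (p := fun v => ¬v + star v ≠ 0) (fun v c e => by
        rw [star_add, e, show v + c + (star v + -c) = v + star v by ring]) (E (s / i))).symm).trans ?_)
      rw [← Finset.sum_sub_distrib, Finset.sum_eq_single_of_mem 0 (by simp) fun v hv v0 => ?_, div_zero]
      have hv' : star v = -v := by linear_combination not_not.1 (Finset.mem_filter.1 hv).2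
      rw [sub_eq_zero, ← E1 (v / i) _ (div_ne_zero v0 i0) (by rw [star_div₀, hv', i1, neg_div_neg_eq])]
      congr 1; field_simp
    rw [← a1, ← Finset.sum_filter_add_sum_filter_not _ fun v => v + star v ≠ 0, a2, a3]; ring
  have E4 : ∀ s, s ≠ 0 → E s = E 1 := fun s s0 => by
    rw [← mul_div_cancel_right₀ s i0, E3 _ (mul_ne_zero s0 i0), ← div_self i0, E3 _ i0]
  have E5 : E 1 = 0 := by
    by_contra n
    have v := Vd.half h.two (1 : F)
    obtain ⟨u, hu, e⟩ := h.Qtr v
    have := E2 v one_ne_zero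
    rw [E4 _ (one_div_ne_zero (v.ne one_ne_zero)), E4 _ (one_div_ne_zero ((hε hu v e).1.ne (by simp)))] at this
    obtain ⟨a, ha, a3, y, s, v, s0, e⟩ := h3 ((mul_eq_zero.1 (show 3 * E 1 = 0 by linear_combination this)).resolve_right n)
    obtain ⟨v', e'⟩ := hε ha v e
    have y0 := v.ne s0
    have y1 := v'.ne (neg_ne_zero.2 s0)
    obtain ⟨u2, hu2, e2⟩ := h.Qtr (v.inv y0)
    obtain ⟨b, c, v3, e3⟩ := h.val (inv_mem hu2) (v'.inv y1)
    have c0 : c ≠ 0 := by
      rintro rfl
      obtain ⟨x, hx, x1, x2⟩ := h.X b v3.to0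
      rw [inv_smul_eq_iff, ← zero_add b, ← x2 Vd.zero, ← mul_smul, ← x1 _ hu2, mul_smul, e2, x2 (v.inv y0)] at e3
      have := (h.inj (v'.inv y1) ((v.inv y0).add v3.to0) e3).2
      have e0 : ε s = 0 := by
        field_simp at this
        linear_combination -this
      have := tr s
      rw [e0, star_zero, sub_zero] at this
      exact mul_ne_zero (neg_ne_zero.2 h.two) (mul_ne_zero s0 (star_ne_zero.2 s0)) this.symm
    obtain ⟨u3, hu3, e4⟩ := h.Qtr v3
    obtain ⟨v5, e5⟩ := hε hu3 v3 e4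
    have y5 := v5.ne (neg_ne_zero.2 c0)
    have g1 : (u2⁻¹ * w * a) • pt 0 0 = pt 0 0 := by rw [mul_smul, mul_smul, e, h.w3 v y0, inv_smul_eq_iff, e2]
    have g2 : (u2⁻¹ * w * a) • a⁻¹ • pt 0 0 = inf := by
      rw [mul_smul, smul_inv_smul, mul_smul, h.w2, h.Qinf _ (inv_mem hu2)]
    have g3 : (u2⁻¹ * w * a) • a • pt 0 0 = pt b c := by
      rw [mul_smul, ← mul_smul a, a3, e', mul_smul, h.w3 v' y1, e3]
    generalize u2⁻¹ * w * a = g at g1 g2 g3
    have a4 : a⁻¹ • a⁻¹ • pt 0 0 = a • pt 0 0 := by rw [← mul_smul, ← mul_inv_rev, a3, inv_inv]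
    obtain ⟨-, m, m0, hm⟩ := h.K (w * u3⁻¹ * g * a⁻¹ * g⁻¹)
      (by simp only [mul_smul, inv_smul_eq_iff.2 g2.symm, a4, g3, inv_smul_eq_iff.2 e4.symm, h.w2])
      (by simp only [mul_smul, inv_smul_eq_iff.2 g1.symm, g2, h.Qinf _ (inv_mem hu3), h.w1])
    have k := hm v3
    rw [mul_smul, inv_smul_eq_iff.2 g3.symm, mul_smul, inv_smul_smul, mul_smul, g1, mul_smul, e5, h.w3 v5 y5] at k
    obtain ⟨k1, k2⟩ := h.inj (v5.inv y5) (v3.smul m) k
    have k3 := congrArg star k2
    have t1 := tr c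
    have y3 := star_ne_zero.2 y5
    have := star_ne_zero.2 c0
    simp only [star_div₀, star_neg, star_mul', star_sub, t1] at k3 y3
    refine n ?_
    rw [← E4 c c0]
    simp only [E]
    rw [show star m = -(-2 * (c * star c) - ε c - star b)⁻¹ from mul_right_cancel₀ this (by rw [← k3]; field_simp),
      show m = -(ε c - b)⁻¹ from mul_right_cancel₀ c0 (by rw [← k2]; field_simp)] at k1
    unfold Vd at v3
    generalize hz : -2 * (c * star c) - ε c - star b = z at k1 y3
    field_simp at k1 ⊢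
    linear_combination -k1 - v3 - hz
  intro s
  by_cases s0 : s = 0
  · have := hε (one_mem Q) Vd.zero (one_smul _ _)
    have := (h.inj Vd.zero this.1 (by rw [← this.2, inv_one, one_smul])).1
    rw [s0, zero_mul, neg_zero]; linear_combination -this
  · have := (E4 s s0).trans E5
    have := star_ne_zero.2 s0
    simp only [E] at *
    field_simp at *
    linear_combination this

theorem one_case [Finite F] {u0 : G} {y0 y0' : F} (hu0 : u0 ∈ Q) (v0 : Vd y0 s) (v0' : Vd y0' s')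
    (e0 : u0 • pt 0 0 = pt y0 s) (e1 : u0 • pt y0' s' = pt (y0 + y0' - star s * s') (s + s'))
    (hu : u ∈ Q) (v : Vd y s) (v' : Vd y' s') (e : u • pt 0 0 = pt y s) :
    u • pt y' s' = pt (y + y' - star s * s') (s + s') := by
  obtain ⟨x, hx, x1, x2⟩ := h.X _ (v.sub v0)
  obtain ⟨z, hz, z1, z2⟩ := h.X _ (v'.sub v0')
  have : u = x * u0 := h.uniq hu (mul_mem hx hu0) (by rw [mul_smul, e0, x2 v0, e, add_sub_cancel])
  rw [← add_sub_cancel y0' y', ← z2 v0', ← mul_smul, ← z1 u hu, this, mul_smul, mul_smul, e1, x2 (v0.mul v0'),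
    z2 ((v0.mul v0').add (v.sub v0))]
  congr 1; ring

theorem gen_case [Finite F] (hu : u ∈ Q) (v : Vd y s) (v' : Vd y' s') (e : u • pt 0 0 = pt y s)
    (n : s' * star s ≠ star s' * s) : u • pt y' s' = pt (y + y' - star s * s') (s + s') := by
  have s0 : s ≠ 0 := by rintro rfl; simp at n
  have s1 : s' ≠ 0 := by rintro rfl; simp at n
  have s2 : s + s' ≠ 0 := fun e => n (by rw [show s' = -s by linear_combination e, star_neg]; ring)
  have n' := sub_ne_zero.2 n
  have := star_ne_zero.2 s0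
  have := star_ne_zero.2 s1
  have s3 := star_ne_zero.2 s2
  rw [star_add] at s3
  obtain ⟨x, hx⟩ : ∃ x, x = (s' * star s - star s' * s) / (s * star s * ((s + s') * (star s + star s'))) := ⟨_, rfl⟩
  have x0 : x ≠ 0 := by rw [hx]; exact div_ne_zero n' (by simp [*])
  have x1 : star x = -x := by
    rw [hx]; simp only [star_div₀, star_mul', star_sub, star_add, star_star]; field_simp; ring
  have a0 : -x * (s + s') / s' ≠ 0 := by simp [*]
  have va : Vd (-x * (s + s') / s') (s * (-x * (s + s') / s')) := by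
    unfold Vd; simp only [star_div₀, star_mul', star_neg, star_add, x1]
    have : x * (s * star s * ((s + s') * (star s + star s'))) = s' * star s - star s' * s := by rw [hx]; field_simp
    field_simp
    linear_combination -x * this
  have ax : -x * (s + s') / s' + x = -x * s / s' := by field_simp; ring
  have ax' : (star (star (-x * (s + s') / s'))⁻¹) + x⁻¹ = s / (x * (s + s')) := by
    rw [star_inv₀, star_star]; field_simp; ring
  generalize ha : -x * (s + s') / s' = a at a0 va ax ax'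
  have ε0 : ∀ {y s : F}, Vd y s → -(s * star s) - y = star y := fun v => by unfold Vd at v; linear_combination -v
  obtain ⟨u0, hu0, u1, hu1, u2, hu2, k, m, m0, e0, e1, e2, hm, k0, -, k2⟩ := h.braid (ε := fun s => -(s * star s))
    (fun hu v e => by rw [ε0 v]; exact ⟨v.conj.neg, h.inv_std hu v e⟩) va (mul_ne_zero s0 a0)
  have a1 := star_ne_zero.2 a0
  have v1 := va.conj.neg.inv a1
  rw [ε0 va] at e1 k2
  rw [ε0 v1] at k2
  rw [mul_div_cancel_right₀ _ a0] at e2 k2
  have vx : Vd x 0 := Vd.of0 (by rw [x1, add_neg_cancel])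
  have vx' : Vd x⁻¹ 0 := by simpa using vx.inv x0
  obtain ⟨z, hz, z1, z2⟩ := h.X x vx.to0
  obtain ⟨z', hz', z1', z2'⟩ := h.X x⁻¹ vx'.to0
  have b0 : a + x ≠ 0 := by rw [ax]; simp [*]
  have b1 : star (star a)⁻¹ + x⁻¹ ≠ 0 := by rw [ax']; simp [*]
  have k3 := congrArg (· • pt x 0) k0
  have v2 := (va.add vx.to0).inv b0
  have v3 := (v1.conj.neg.add vx'.to0).inv b1
  obtain ⟨c, d, v4, e4⟩ := h.val (inv_mem hu2) v2
  simp only [mul_smul] at k3
  rw [h.w3 vx x0, zero_div, ← zero_add x⁻¹, ← z2' Vd.zero, ← mul_smul u1⁻¹, ← z1' _ (inv_mem hu1), mul_smul,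
    h.inv_std hu1 v1 e1, z2' v1.conj.neg, h.w3 (v1.conj.neg.add vx'.to0) b1] at k3
  nth_rewrite 1 [← zero_add x] at k3
  rw [← z2 Vd.zero, ← mul_smul u0, ← z1 _ hu0, mul_smul, e0, z2 va, h.w3 (va.add vx.to0) b0, e4, hm v4] at k3
  have d0 : d = s' := by
    have k4 := (h.inj (v4.smul m) v3 k3).2
    rw [ax'] at k4
    rw [star_inv₀, star_star] at k2
    refine mul_left_cancel₀ m0 (k4.trans (mul_left_cancel₀ s0 ?_))
    rw [show s * (m * s') = -(-(m * s)) * s' by ring, ← k2, ← ha]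
    field_simp
  subst d0
  rw [inv_smul_eq_iff] at e4
  have v5 : Vd a⁻¹ s := by simpa [a0] using va.inv a0
  refine h.one_case hu2 v5 v4 e2 ?_ hu v v' e
  have s4 : s * a / (a + x) = s + d := by rw [ax, ← ha]; field_simp
  rw [← e4, s4]
  rw [s4] at v2
  have k5 := (h.inj (v4.smul m) v3 k3).1
  have k6 := congrArg star k2
  congr 1
  rw [star_inv₀, star_star] at k2 k6
  simp only [star_div₀, star_neg, star_mul', star_star, star_inv₀] at k6
  rw [ax', show star m = -(star a ^ 2 / a) from mul_right_cancel₀ (star_ne_zero.2 s0) (by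
      rw [← neg_neg (star m * _), ← k6]; field_simp),
    show m = -(a ^ 2 / star a) from mul_right_cancel₀ s0 (by rw [← neg_neg (m * _), ← k2]; field_simp)] at k5
  have a2 : star a = x * (star s + star d) / star d := by
    rw [← ha]; simp only [star_div₀, star_mul', star_neg, star_add, x1, neg_neg]
  rw [show c = x * (s + d) / (s * a * star a) by field_simp at k5 ⊢; linear_combination k5, ax, a2, ← ha]
  have : x * (s * star s * ((s + d) * (star s + star d))) = d * star s - star d * s := by rw [hx]; field_simp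
  field_simp
  linear_combination this

/-- the product in the root group -/
theorem std [Finite F] (hu : u ∈ Q) (v : Vd y s) (v' : Vd y' s') (e : u • pt 0 0 = pt y s) :
    u • pt y' s' = pt (y + y' - star s * s') (s + s') := by
  by_cases n : s' * star s ≠ star s' * s
  · exact h.gen_case hu v v' e n
  rw [not_not] at n
  by_cases s0 : s = 0
  · subst s0
    exact h.one_case (one_mem Q) Vd.zero v' (one_smul _ _) (by simp) hu v v' e
  by_cases s1 : s' = 0
  · subst s1
    exact h.one_case hu v Vd.zero e (by simpa using e) hu v v' e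
  by_cases s2 : s + s' = 0
  · obtain rfl : s' = -s := by linear_combination s2
    refine h.one_case hu v v.conj.neg e ?_ hu v v' e
    rw [← h.inv_std hu v e, smul_inv_smul, add_neg_cancel]
    congr 1; unfold Vd at v; linear_combination -v
  obtain ⟨i, i0, i1⟩ := h.nt.exists_delta
  have := star_ne_zero.2 s0
  have vb := Vd.half h.two (s * i)
  have va := Vd.half h.two (s - s * i)
  obtain ⟨b, hb, eb⟩ := h.Qtr vb
  obtain ⟨a, ha, ea⟩ := h.Qtr va
  have two := h.two
  have e1 := h.gen_case ha va vb ea (by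
    rw [star_sub, star_mul', i1, ← sub_ne_zero, show _ - _ = 2 * (s * star s * i) by ring]; simp [*])
  have e2 := h.gen_case hb vb v' eb (by
    rw [star_mul', i1, ← sub_ne_zero, show _ - _ = -2 * (s' * star s * i) by linear_combination i * n]; simp [*])
  have e3 := h.gen_case ha va (vb.mul v') ea (by
    rw [star_sub, star_add, star_mul', i1, ← sub_ne_zero,
      show _ - _ = 2 * ((s + s') * star s * i) by linear_combination (1 - i) * n]; simp [*])
  have v1 := va.mul vb
  rw [sub_add_cancel] at e1 v1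
  refine h.one_case (mul_mem ha hb) v1 v' (by rw [mul_smul, eb, e1]) ?_ hu v v' e
  rw [mul_smul, e2, e3]
  congr 1
  · rw [star_sub s]; ring
  · ring

end Co

end Cfsg.Agent.B85I
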