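import Cfsg.Agent.B84H.B
import Cfsg.Agent.B84C.C

/-! # Arithmetic for the index of the centralizer -/

set_option autoImplicit false
set_option linter.unusedSectionVars false

namespace Cfsg.Agent.B85I

open Cfsg Cfsg.Agent.GT Subgroup Finset
open scoped Classical

variable {q n c x : ℤ} {p k : ℕ}

theorem ar_split (hp : p.Prime) (hq : q = p ^ k) (k0 : k ≠ 0) {a b : ℤ} (h : q ^ 2 ∣ a * b) (e : q ∣ a - b + 1) :
    q ^ 2 ∣ a ∨ q ^ 2 ∣ b := by
  have pp := Nat.prime_iff_prime_int.1 hp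
  rw [hq, ← pow_mul] at *
  by_cases d : (p : ℤ) ∣ a
  · refine .inl (pp.pow_dvd_of_dvd_mul_right _ (fun d' => pp.not_dvd_one ?_) h)
    exact (dvd_add_right (dvd_sub d d')).1 ((dvd_pow_self _ k0).trans e)
  · exact .inr (pp.pow_dvd_of_dvd_mul_left _ d h)

theorem ar_bd {m : ℤ} (h3 : 3 ≤ q) (c0 : c ≠ 0) (m0 : 0 < m)
    (E : q * (c * m - 1 + q - c) ^ 2 = c * (c * m - 1) * (q - 1) * (q + 1) ^ 2) : m < 9 * q ^ 2 - 3 * q := by
  by_contra h
  have a1 : 1 ≤ |c| := Int.one_le_abs c0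
  have a2 : c * (c * m - 1) ≤ c ^ 2 * (m + 1) := by nlinarith [sq_abs c, neg_abs_le c]
  have a3 : |c| * (m - q) ≤ |c * m - 1 + q - c| := by
    have := abs_sub_abs_le_abs_sub (c * (m - 1)) (1 - q)
    rw [abs_mul, abs_of_nonneg (by omega : 0 ≤ m - 1), abs_of_nonpos (by omega : 1 - q ≤ 0),
      show c * (m - 1) - (1 - q) = c * m - 1 + q - c by ring] at this
    nlinarith
  have b1 : 5 * q ^ 2 ≤ m - q := by nlinarith
  have b2 : 0 < m - q := by nlinarith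
  have a4 : c ^ 2 * (m - q) ^ 2 ≤ (c * m - 1 + q - c) ^ 2 := by
    rw [← sq_abs c, ← mul_pow, ← sq_abs (_ - c)]
    exact pow_le_pow_left₀ (mul_nonneg (by omega) b2.le) a3 2
  have b3 : 0 ≤ (q - 1) * (q + 1) ^ 2 := mul_nonneg (by omega) (sq_nonneg _)
  have a5 : c ^ 2 * (q * (m - q) ^ 2) ≤ c ^ 2 * ((m + 1) * ((q - 1) * (q + 1) ^ 2)) := by
    have := mul_le_mul_of_nonneg_left a4 (by omega : 0 ≤ q)
    have := mul_le_mul_of_nonneg_right a2 b3
    linarith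
  have a6 := le_of_mul_le_mul_left a5 (by positivity)
  have a7 : (m + 1) * ((q - 1) * (q + 1) ^ 2) ≤ 2 * (m - q) * (2 * q ^ 3) :=
    mul_le_mul (by clear * - b1 h3; nlinarith) (by clear * - h3; nlinarith) b3 (by omega)
  have a8 : (m - q) * (4 * q ^ 3) < (m - q) * (q * (m - q)) :=
    mul_lt_mul_of_pos_left (by clear * - b1 h3; nlinarith) b2
  linarith

/-- the case `q ≡ 3 (mod 4)` -/
theorem ar3 (hp : p.Prime) (hq : q = p ^ k) (h3 : 3 ≤ q) (c0 : c ≠ 0) (o : Odd n) (n0 : 0 < n) (d : q ^ 2 ∣ n)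
    (e1 : n * c = q ^ 2 * (x + 1)) (E : q * (x + q - c) ^ 2 = c * x * (q - 1) * (q + 1) ^ 2) :
    n = q ^ 2 * (q ^ 2 - q + 1) ∨ n = q ^ 2 * (q ^ 2 + q - 1) := by
  obtain ⟨m, rfl⟩ := d
  have q0 : 0 < q ^ 2 := by positivity
  obtain rfl : x = c * m - 1 := mul_left_cancel₀ q0.ne' (by linear_combination -e1)
  have m0 : 0 < m := (mul_pos_iff_of_pos_left q0).1 n0
  have om : Odd m := (Int.odd_mul.1 o).2
  have q1 : q ^ 2 - 1 ≠ 0 := by nlinarith
  obtain ⟨D, hD⟩ : q ^ 2 - 1 ∣ 2 * (q * (m - 1) ^ 2 - m * (q - 1) * (q + 1) ^ 2) * c +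
      (2 * q * (q - 1) * (m - 1) + (q - 1) * (q + 1) ^ 2) :=
    (Int.pow_dvd_pow_iff two_ne_zero).1 ⟨4 * q ^ 2 * m + (q - 1) ^ 2, by
      linear_combination 4 * (q * (m - 1) ^ 2 - m * (q - 1) * (q + 1) ^ 2) * E⟩
  have k1 : |D| ^ 2 = 4 * q ^ 2 * m + (q - 1) ^ 2 := mul_left_cancel₀ (pow_ne_zero 2 q1) (by
    rw [sq_abs, ← mul_pow, ← hD]; linear_combination 4 * (q * (m - 1) ^ 2 - m * (q - 1) * (q + 1) ^ 2) * E)
  have D0 := abs_nonneg D
  generalize |D| = D at k1 D0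
  obtain ⟨b, hb⟩ : Even (D - (q - 1)) := by
    rw [Int.even_sub, ← Int.even_pow' (m := D) two_ne_zero, k1, Int.even_add, Int.even_pow' two_ne_zero]
    simp [show Even (4 : ℤ) by decide, mul_assoc]
  obtain rfl : D = 2 * b + (q - 1) := by omega
  have k2 : b * (b + q - 1) = q ^ 2 * m := mul_left_cancel₀ four_ne_zero (by linear_combination k1)
  have b0 : 0 < b := by
    by_contra h
    nlinarith [mul_pos q0 m0]
  have bd := ar_bd h3 c0 m0 E
  clear E hD k1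
  have k0 : k ≠ 0 := by rintro rfl; simp at hq; omega
  obtain ⟨j, hj⟩ | ⟨j, hj⟩ := ar_split hp hq k0 (a := b + q - 1) (b := b) ⟨m, by linear_combination k2⟩ ⟨1, by ring⟩
  · obtain rfl : m = j * (q ^ 2 * j - q + 1) := mul_left_cancel₀ q0.ne' (by
      linear_combination -k2 + (b + q ^ 2 * j - (q - 1) + (q - 1)) * hj - (q - 1) * hj + (q - 1) * hj)
    have j0 : 0 < j := by by_contra h; nlinarith
    obtain ⟨i, rfl⟩ := (Int.odd_mul.1 om).1
    obtain rfl : i = 0 := by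
      by_contra h
      have : 1 ≤ i := by omega
      nlinarith
    left; ring
  · obtain rfl : m = j * (q ^ 2 * j + q - 1) := mul_left_cancel₀ q0.ne' (by rw [← k2, hj]; ring)
    have j0 : 0 < j := by by_contra h; nlinarith
    obtain ⟨i, rfl⟩ := (Int.odd_mul.1 om).1
    obtain rfl : i = 0 := by
      by_contra h
      have : 1 ≤ i := by omega
      nlinarith
    right; ring

theorem ar3' {N : ℤ} (hp : p.Prime) (hq : q = p ^ k) (h3 : 3 ≤ q) (c0 : 0 < c) (o : Odd n) (n0 : 0 < n) (d : q ^ 2 ∣ n)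
    (e1 : n * c = q ^ 2 * N) (E : q * (N - c - (q - 1)) ^ 2 = (q - 1) * (q + 1) ^ 2 * c * (N + 1) ∨
      q * (N - c + (q - 1)) ^ 2 = (q - 1) * (q + 1) ^ 2 * c * (N - 1)) :
    n = q ^ 2 * (q ^ 2 - q + 1) ∨ n = q ^ 2 * (q ^ 2 + q - 1) := by
  rcases E with E | E
  · exact ar3 (c := -c) (x := -N - 1) hp hq h3 (by omega) o n0 d (by linear_combination -e1) (by linear_combination E)
  · exact ar3 (x := N - 1) hp hq h3 c0.ne' o n0 d (by linear_combination e1) (by linear_combination E)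

/-- the case `q ≡ 1 (mod 4)` -/
theorem ar1 (hp : p.Prime) (hq : q = p ^ k) (h3 : 3 ≤ q) (d : q ^ 2 ∣ n) (e1 : c * (x - q) = q * (q ^ 2 - 1))
    (e2 : n = (q ^ 2 - 1 + c) * (q ^ 2 - q + c)) (b : 3 * q + 2 ≤ x ∨ x ≤ -3 * q - 4) :
    n = q ^ 2 * (q ^ 2 - q + 1) ∨ n = q ^ 2 * (q ^ 2 + q - 1) := by
  have k0 : k ≠ 0 := by rintro rfl; simp at hq; omega
  have c1 : 2 * |c| ≤ q * (q - 1) := by
    have : 2 * (q + 1) ≤ |x - q| := by rcases b with b | b <;> [rw [abs_of_nonneg]; rw [abs_of_nonpos]] <;> omega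
    have e := congrArg abs e1
    rw [abs_mul, abs_of_nonneg (a := q * _) (by nlinarith)] at e
    nlinarith [abs_nonneg c]
  have c2 := le_abs_self c
  have c3 := neg_abs_le c
  obtain ⟨j, hj⟩ | ⟨j, hj⟩ := ar_split hp hq k0 (e2 ▸ d) ⟨1, by ring⟩
  · obtain rfl : j = 1 := by
      have : 0 < j := by by_contra h; nlinarith
      have : j < 2 := by by_contra h; nlinarith
      omega
    obtain rfl : c = 1 := by omega
    left; rw [e2]; ring
  · obtain rfl : j = 1 := by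
      have : 0 < j := by by_contra h; nlinarith
      have : j < 2 := by by_contra h; nlinarith
      omega
    obtain rfl : c = q := by omega
    right; rw [e2]; ring

theorem kill3 (h : q % 4 = 3) : ¬ 8 ∣ q ^ 2 * (q ^ 2 + q - 1) - 1 - q * (q - 1) := by
  obtain ⟨j, rfl⟩ : ∃ j, q = 4 * j + 3 := ⟨q / 4, by omega⟩
  rw [show (4 * j + 3) ^ 2 * ((4 * j + 3) ^ 2 + (4 * j + 3) - 1) - 1 - (4 * j + 3) * (4 * j + 3 - 1) =
    8 * (32 * j ^ 4 + 104 * j ^ 3 + 122 * j ^ 2 + 62 * j + 11) + 4 by ring]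
  omega

theorem kill1 {q : ℕ} (h : q % 4 = 1) (h1 : 1 < q)
    (H : ∀ k, 2 ^ k ∣ q - 1 → (4 * 2 ^ k : ℤ) ∣ q ^ 2 * (q ^ 2 + q - 1) - 1 + q * (q - 1)) : False := by
  obtain ⟨k, r, hr, e⟩ := Nat.exists_eq_two_pow_mul_odd (n := q - 1) (by omega)
  have := H k ⟨r, e⟩
  have e' : (q : ℤ) - 1 = 2 ^ k * r := by
    rw [← Nat.cast_one, ← Nat.cast_sub h1.le, e]; push_cast; rfl
  rw [show (q : ℤ) ^ 2 * (q ^ 2 + q - 1) - 1 + q * (q - 1) = (q - 1) * ((q + 1) * (q ^ 2 + q + 1)) by ring, e',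
    mul_comm 4, mul_assoc, mul_dvd_mul_iff_left (by positivity)] at this
  obtain ⟨j, rfl⟩ : ∃ j, q = 4 * j + 1 := ⟨q / 4, by omega⟩
  obtain ⟨i, rfl⟩ := hr
  push_cast at this
  rw [show (2 * i + 1 : ℤ) * ((4 * j + 1 + 1) * ((4 * j + 1) ^ 2 + (4 * j + 1) + 1)) =
    4 * (i * (2 * j + 1) * (16 * j ^ 2 + 12 * j + 3) + 16 * j ^ 3 + 20 * j ^ 2 + 9 * j + 1) + 2 by ring] at this
  omega

variable {G : Type*} [Group G] [Fintype G] {t y : G}

/-- a cyclic 2-group containing `t` acts semiregularly on the involutions not commuting with `t` -/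
theorem semireg (tt : t * t = 1) (t1 : t ≠ 1) {κ : ℕ} (hκ : #{s ∈ ({s | IsConj t s} : Finset G) | Commute t s} = κ + 1)
    (hy : y ^ 2 ^ k = t) : (orderOf y : ℤ) ∣ C1[t].index - 1 - κ := by
  have ty : t ∈ zpowers y := hy ▸ npow_mem_zpowers y _
  have c : ∀ z ∈ zpowers y, Commute z t := by
    rintro _ ⟨i, rfl⟩
    exact hy ▸ ((Commute.refl y).pow_right _).zpow_left i
  have b := B84H.burn (zpowers y) {s ∈ ({s | IsConj t s} : Finset G) | ¬Commute t s} fun z hz x hx => by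
    simp only [mem_filter, mem_univ, true_and] at hx ⊢
    exact ⟨hx.1.trans (isConj_iff.2 ⟨z, rfl⟩), fun e => hx.2 ((TT.commute_conj_iff z).1 (by
      rwa [TT.commute_iff_conj.1 (c z hz)]))⟩
  rw [sum_eq_single_of_mem 1 (by simp) fun z hz z1 => ?_, filter_true_of_mem fun x _ => Commute.one_left x,
    Nat.card_zpowers] at b
  · have := card_filter_add_card_filter_not (s := ({s | IsConj t s} : Finset G)) (Commute t)
    rw [hκ, B84H.card_cl] at this
    rw [← this]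
    push_cast
    convert Int.natCast_dvd_natCast.2 b using 1
    ring
  replace hz := (mem_filter.1 hz).2
  obtain ⟨i, hi, ii, i1⟩ := B84C.exists_inv (x := z) fun o => z1 (orderOf_eq_one_iff.1 (
      Nat.Coprime.eq_one_of_dvd ((Nat.coprime_two_right.2 o).pow_right (k + 1)) ((orderOf_dvd_of_mem_zpowers hz).trans
        (orderOf_dvd_of_pow_eq_one (by rw [pow_succ, pow_mul, hy, sq, tt])))))
  · rw [card_eq_zero, filter_eq_empty_iff]
    intro x hx e
    obtain ⟨j, rfl⟩ := B84C.inv_uniq ii i1 tt t1 (zpowers_le.2 hz hi) ty ▸ hi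
    exact (mem_filter.1 hx).2 (e.zpow_left j)

end Cfsg.Agent.B85I
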