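import Cfsg.Agent.B85I.A
import Cfsg.Agent.Cl.OLowU

/-! # A simple group in unitary coordinates is `PSU₃(q)` -/

set_option autoImplicit false
set_option linter.unusedSectionVars false

namespace Cfsg.Agent.B85I

open Cfsg.Agent.GT Cfsg.Agent.Cl Cfsg.Agent.Cl.Uni Subgroup

variable {F : Type*} [Field F] [StarRing F] {V : Type*} [AddCommGroup V] [Module F V]

/-- a hyperbolic pair and a unit vector spanning the space -/
structure Fr (hh : HForm F V) (e f m : V) : Prop extends Hyp hh e f where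
  em : hh e m = 0
  fm : hh f m = 0
  mm : hh m m = 1
  dec : ∀ x, x = hh x f • e + hh x e • f + hh x m • m

variable {G Ω : Type*} [Group G] [MulAction G Ω] {hh : HForm F V} {e f m x x' : V}

/-- the vector `x` represents the point `ω` -/
def Rep (inf : Ω) (pt : F → F → Ω) (e f m : V) (ω : Ω) (x : V) : Prop :=
  ∃ c : F, c ≠ 0 ∧ ((ω = inf ∧ x = c • e) ∨ ∃ y s, Vd y s ∧ ω = pt y s ∧ x = c • (y • e + f + s • m))

/-- the isometry `g` acts as `γ` -/
def Rl (inf : Ω) (pt : F → F → Ω) (e f m : V) (g : UG hh) (γ : G) : Prop :=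
  ∀ ω x, Rep inf pt e f m ω x → Rep inf pt e f m (γ • ω) (g.1 x)

variable {inf ω ω' : Ω} {pt : F → F → Ω} {Q : Subgroup G} {w γ γ' : G} {g g' : UG hh}

theorem Rep.smul (r : Rep inf pt e f m ω x) {a : F} (a0 : a ≠ 0) : Rep inf pt e f m ω (a • x) := by
  obtain ⟨c, c0, ⟨r, rfl⟩ | ⟨y, s, v, r, rfl⟩⟩ := r
  exacts [⟨a * c, mul_ne_zero a0 c0, .inl ⟨r, smul_smul _ _ _⟩⟩,
    ⟨a * c, mul_ne_zero a0 c0, .inr ⟨y, s, v, r, smul_smul _ _ _⟩⟩]

theorem Rl.mul (r : Rl inf pt e f m g γ) (r' : Rl inf pt e f m g' γ') : Rl inf pt e f m (g * g') (γ * γ') :=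
  fun ω x h => by rw [mul_smul]; exact r _ _ (r' ω x h)

theorem Rl.of (h1 : Rep inf pt e f m (γ • inf) (g.1 e))
    (h2 : ∀ y s, Vd y s → Rep inf pt e f m (γ • pt y s) (g.1 (y • e + f + s • m))) : Rl inf pt e f m g γ := by
  rintro ω x ⟨c, c0, ⟨rfl, rfl⟩ | ⟨y, s, v, rfl, rfl⟩⟩ <;> rw [map_smul]
  exacts [h1.smul c0, (h2 y s v).smul c0]

theorem rep_inf : Rep inf pt e f m inf e := ⟨1, one_ne_zero, .inl ⟨rfl, (one_smul _ _).symm⟩⟩

theorem rep_pt {y s : F} (v : Vd y s) : Rep inf pt e f m (pt y s) (y • e + f + s • m) :=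
  ⟨1, one_ne_zero, .inr ⟨y, s, v, rfl, (one_smul _ _).symm⟩⟩

theorem Fr.uniq (b : Fr hh e f m) (r : Rep inf pt e f m ω x) (r' : Rep inf pt e f m ω' x) : ω = ω' := by
  have me := hh.eq_zero_symm b.em
  have mf := hh.eq_zero_symm b.fm
  obtain ⟨c, c0, ⟨rfl, rfl⟩ | ⟨y, s, v, rfl, rfl⟩⟩ := r <;>
    obtain ⟨c', c0', ⟨rfl, r'⟩ | ⟨y', s', v', rfl, r'⟩⟩ := r' <;>
    have e1 := congrArg (hh · e) r' <;> have e2 := congrArg (hh · f) r' <;> have e3 := congrArg (hh · m) r' <;>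
    simp [b.hee, b.hff, b.hef, b.toHyp.hfe, b.em, b.fm, b.mm, me, mf, c0, c0'] at e1 e2 e3 ⊢
  · exact (c0' e1.symm).elim
  · subst e1
    rw [mul_left_cancel₀ c0 e2, mul_left_cancel₀ c0 e3]

theorem Fr.iso (b : Fr hh e f m) (x0 : x ≠ 0) (hx : hh x x = 0) : ∃ ω, Rep inf pt e f m ω x := by
  have me := hh.eq_zero_symm b.em
  have mf := hh.eq_zero_symm b.fm
  have d := b.dec x
  generalize hh x f = α, hh x e = β, hh x m = γ at d
  subst d
  simp [b.hee, b.hff, b.hef, b.toHyp.hfe, b.em, b.fm, b.mm, me, mf] at hx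
  by_cases h : β = 0
  · subst h
    obtain rfl : γ = 0 := by simpa using hx
    exact ⟨inf, α, by rintro rfl; simp at x0, .inl ⟨rfl, by simp⟩⟩
  · have := star_ne_zero.2 h
    refine ⟨_, β, h, .inr ⟨α / β, γ / β, ?_, rfl, ?_⟩⟩
    · unfold Vd; simp only [star_div₀]; field_simp; linear_combination hx
    · simp only [smul_add, smul_smul, mul_div_cancel₀ _ h]

namespace Co

variable (h : Co inf pt Q w)
include h

theorem rep_ex (ω : Ω) : ∃ x, Rep inf pt e f m ω x := by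
  by_cases n : ω = inf
  · exact ⟨e, by rw [n]; exact rep_inf⟩
  · obtain ⟨y, s, v, rfl⟩ := h.surj ω n
    exact ⟨_, rep_pt v⟩

theorem rep_uniq (r : Rep inf pt e f m ω x) (r' : Rep inf pt e f m ω x') : ∃ c : F, c ≠ 0 ∧ x' = c • x := by
  obtain ⟨c, c0, ⟨rfl, rfl⟩ | ⟨y, s, v, rfl, rfl⟩⟩ := r <;>
    obtain ⟨c', c0', ⟨r', rfl⟩ | ⟨y', s', v', r', rfl⟩⟩ := r'
  · exact ⟨c' / c, div_ne_zero c0' c0, by rw [smul_smul, div_mul_cancel₀ _ c0]⟩
  · exact (h.ne v' r'.symm).elim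
  · exact (h.ne v r').elim
  · obtain ⟨rfl, rfl⟩ := h.inj v v' r'
    exact ⟨c' / c, div_ne_zero c0' c0, by rw [smul_smul, div_mul_cancel₀ _ c0]⟩

theorem rl_inv (r : Rl inf pt e f m g γ) : Rl inf pt e f m g⁻¹ γ⁻¹ := fun ω x hx => by
  obtain ⟨z, hz⟩ := h.rep_ex (e := e) (f := f) (m := m) (γ⁻¹ • ω)
  have := r _ _ hz
  rw [smul_inv_smul] at this
  obtain ⟨c, c0, rfl⟩ := h.rep_uniq this hx
  rw [map_smul, UG.inv_apply_apply]
  exact hz.smul c0

theorem faith [IsSimpleGroup G] (e : ∀ ω : Ω, γ • ω = ω) : γ = 1 := by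
  rcases (MulAction.toPermHom G Ω).normal_ker.eq_bot_or_eq_top with k | k
  · exact mem_bot.1 (k ▸ MonoidHom.mem_ker.2 (Equiv.ext e))
  · exact (h.ne Vd.zero (h.w1.symm.trans (DFunLike.congr_fun (MonoidHom.mem_ker.1 (k ▸ mem_top w)) inf))).elim

variable (b : Fr hh e f m)
include b

theorem rl_uniq [IsSimpleGroup G] (r : Rl inf pt e f m g γ) (r' : Rl inf pt e f m g γ') : γ = γ' := by
  refine (inv_mul_eq_one.1 (h.faith fun ω => ?_)).symm
  obtain ⟨z, hz⟩ := h.rep_ex (e := e) (f := f) (m := m) ω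
  rw [mul_smul, b.uniq (r _ _ hz) (r' _ _ hz), inv_smul_smul]

theorem rl_Q [Finite F] {u : G} {y s : F} (hu : u ∈ Q) (v : Vd y s) (e1 : u • pt 0 0 = pt y s)
    (C : EC hh e (-s • m) (-y)) : Rl inf pt e f m (eich hh e _ _ C) u := by
  refine Rl.of (by rw [eich_self, h.Qinf u hu]; exact rep_inf) fun y' s' v' => ?_
  rw [h.std hu v v' e1]
  convert rep_pt (v.mul v') using 1
  simp [eich_apply, b.hee, b.toHyp.hfe, b.em, b.fm, b.mm, hh.eq_zero_symm b.em]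
  module

theorem ec {y s : F} (v : Vd y s) : EC hh e (-s • m) (-y) :=
  ⟨b.hee, by simp [b.em], by unfold Vd at v; simp [b.mm]; linear_combination -v⟩

theorem rl_w : ∃ σ : UG hh, σ.1 e = f ∧ σ.1 m = m ∧ Rl inf pt e f m σ w := by
  have me := hh.eq_zero_symm b.em
  have mf := hh.eq_zero_symm b.fm
  have c : (-1 : F) + star (-1) = -1 * star (-1) * hh (e - f) (e - f) := by
    simp [b.hee, b.hff, b.hef, b.toHyp.hfe]; ring
  have s1 : (sig hh _ _ c).1 e = f := by simp [sig_apply, b.hee, b.hef]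
  have s2 : (sig hh _ _ c).1 f = e := by simp [sig_apply, b.hff, b.toHyp.hfe]
  have s3 : (sig hh _ _ c).1 m = m := by simp [sig_apply, me, mf]
  refine ⟨_, s1, s3, Rl.of (by rw [s1, h.w1]; exact ⟨1, one_ne_zero, .inr ⟨0, 0, Vd.zero, rfl, by simp⟩⟩)
    fun y s v => ?_⟩
  rw [map_add, map_add, map_smul, map_smul, s1, s2, s3]
  by_cases y0 : y = 0
  · subst y0
    obtain rfl : s = 0 := by simpa [Vd] using v
    rw [h.w2]; simpa using rep_inf
  · rw [h.w3 v y0]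
    convert (rep_pt (v.inv y0)).smul y0 using 1
    simp only [smul_add, smul_smul, mul_inv_cancel₀ y0, mul_div_cancel₀ _ y0]
    module

theorem rl_all [Finite F] (γ : G) : ∃ g : UG hh, Rl inf pt e f m g γ := by
  have B : ∀ γ : G, γ • inf = inf → ∃ g : UG hh, Rl inf pt e f m g γ := fun γ e0 => by
    obtain ⟨y, s, v, e1⟩ := h.surj (γ • pt 0 0) fun n => h.ne Vd.zero (by rw [← smul_left_cancel_iff γ, n, e0])
    obtain ⟨u, hu, e2⟩ := h.Qtr v
    have k1 : (u⁻¹ * γ) • inf = inf := by rw [mul_smul, e0, h.Qinf _ (inv_mem hu)]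
    obtain ⟨-, a, a0, k⟩ := h.K (u⁻¹ * γ) k1 (by rw [mul_smul, e1, ← e2, inv_smul_smul])
    have a1 := star_ne_zero.2 a0
    have r : Rl inf pt e f m (b.toHyp.hd (.mk0 _ a1)) (u⁻¹ * γ) := by
      refine Rl.of (by rw [k1, Hyp.hd_e]; exact rep_inf.smul a1) fun y s v => ?_
      rw [k v, map_add, map_add, map_smul, map_smul, Hyp.hd_e, Hyp.hd_f, Hyp.hd_w _ _ b.em b.fm]
      convert (rep_pt (v.smul a)).smul (inv_ne_zero a0) using 1
      simp only [smul_add, smul_smul, Units.val_mk0, star_star]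
      congr 3 <;> field_simp
    exact ⟨_, by simpa using (h.rl_Q b hu v e2 (h.ec b v)).mul r⟩
  by_cases e0 : γ • inf = inf
  · exact B γ e0
  obtain ⟨y, s, v, e1⟩ := h.surj _ e0
  obtain ⟨u, hu, e2⟩ := h.Qtr v
  obtain ⟨σ, -, -, r⟩ := h.rl_w b
  obtain ⟨g, r'⟩ := B ((u * w)⁻¹ * γ) (by rw [mul_smul, e1, inv_smul_eq_iff, mul_smul, h.w1, e2])
  exact ⟨_, mul_inv_cancel_left (u * w) γ ▸ ((h.rl_Q b hu v e2 (h.ec b v)).mul r).mul r'⟩

theorem rl_EG [Finite F] (nd : Nondeg hh) (g : EG hh) : ∃ γ : G, Rl inf pt e f m g.1 γ := by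
  let K : Subgroup (UG hh) := ⟨⟨⟨{g | ∃ γ : G, Rl inf pt e f m g γ}, fun ⟨_, r⟩ ⟨_, r'⟩ => ⟨_, r.mul r'⟩⟩,
    1, fun ω x r => by rwa [one_smul]⟩, fun ⟨_, r⟩ => ⟨_, h.rl_inv r⟩⟩
  have d : ∀ x, hh e x = 0 → hh f x = 0 → ∃ s : F, x = -s • m := fun x h1 h2 =>
    ⟨-hh x m, by simpa [hh.eq_zero_symm h1, hh.eq_zero_symm h2] using b.dec x⟩
  have k : ∀ x β (C : EC hh e x β), hh f x = 0 → eich hh e x β C ∈ K := fun x β C h2 => by
    obtain ⟨s, rfl⟩ := d x C.hv h2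
    obtain ⟨y, rfl⟩ := neg_surjective β
    have v : Vd y s := by have := C.hb; simp [b.mm] at this; unfold Vd; linear_combination -this
    obtain ⟨u, hu, e2⟩ := h.Qtr v
    exact ⟨u, h.rl_Q b hu v e2 C⟩
  refine b.toHyp.EG_le h.nt nd K k (fun x β C h1 => ?_) g.2
  obtain ⟨σ, s1, s2, r⟩ := h.rl_w b
  have C' : EC hh e x β := ⟨b.hee, h1, C.hb⟩
  have := mul_mem (mul_mem (show σ ∈ K from ⟨_, r⟩) (k x β C' C.hv)) (inv_mem (show σ ∈ K from ⟨_, r⟩))
  obtain ⟨s, rfl⟩ := d x h1 C.hv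
  rwa [conj_eich, eich_congr _ C s1 (by rw [map_smul, s2]) rfl] at this

theorem iso_EG [Finite F] [IsSimpleGroup G] (nd : Nondeg hh) : Nonempty (G ≃* EG hh ⧸ center (EG hh)) := by
  choose θ hθ using h.rl_EG b nd
  let π : EG hh →* G := MonoidHom.mk' θ fun x y => h.rl_uniq b (hθ _) ((hθ x).mul (hθ y))
  have k : π.ker = center _ := by
    ext g
    rw [b.toHyp.mem_center_iff h.nt nd, MonoidHom.mem_ker]
    refine ⟨fun k => ?_, fun ⟨c, hc⟩ => h.rl_uniq b (hθ g) fun ω x r => ?_⟩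
    · refine (b.toHyp.scalar_of_fix h.nt g.1 fun x hx => ?_).imp fun _ e => e.2
      by_cases x0 : x = 0
      · exact ⟨0, by simp [x0]⟩
      obtain ⟨ω, r⟩ := b.iso (inf := inf) (pt := pt) x0 hx
      have := hθ g _ _ r
      rw [show θ g = 1 from k, one_smul] at this
      exact (h.rep_uniq r this).imp fun _ e => e.2
    · rw [hc, one_smul]
      refine r.smul ?_
      rintro rfl
      exact UG.apply_ne_zero g.1 b.toHyp.e_ne (by rw [hc, zero_smul])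
  have n : π.range.Normal := ⟨by
    rintro _ ⟨g, rfl⟩ γ
    obtain ⟨g', r⟩ := h.rl_all b γ
    exact ⟨⟨g' * g * g'⁻¹, Normal.conj_mem inferInstance _ g.2 _⟩,
      h.rl_uniq b (hθ _) ((r.mul (hθ g)).mul (h.rl_inv r))⟩⟩
  have s : π.range = ⊤ := n.eq_bot_or_eq_top.resolve_left fun n => by
    have v := Vd.half h.two (1 : F)
    obtain ⟨u, hu, e2⟩ := h.Qtr v
    have : u ∈ π.range := ⟨⟨_, eich_mem_EG (h.ec b v)⟩, h.rl_uniq b (hθ _) (h.rl_Q b hu v e2 (h.ec b v))⟩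
    rw [n, mem_bot] at this
    rw [this, one_smul] at e2
    exact zero_ne_one (h.inj Vd.zero v e2).2
  exact ⟨(QuotientGroup.quotientKerEquivOfSurjective π (MonoidHom.range_eq_top.1 s)).symm.trans
    (QuotientGroup.quotientMulEquivOfEq k)⟩

end Co

theorem Co.psu [IsSimpleGroup G] (h : Co inf pt Q w) {q : ℕ} (H : IsFrob F q) : Nonempty (G ≃* Cfsg.PSU 3 F q) := by
  have := H.fin
  have two := h.two
  obtain ⟨i, hi⟩ := H.exists_norm (c := -1) (by simp)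
  have b : Fr (stdH F 3) ![1, i, 0] ![1 / 2, -i / 2, 0] ![0, 0, 1] := by
    refine ⟨⟨?_, ?_, ?_⟩, ?_, ?_, ?_, fun x => ?_⟩
    iterate 6 simp [stdH_apply, Fin.sum_univ_three, hi] <;> field_simp <;> first | linear_combination hi | linear_combination -hi
    ext j
    fin_cases j <;> simp [stdH_apply, Fin.sum_univ_three] <;> field_simp
    exacts [by ring, by linear_combination 2 * x 1 * hi]
  exact ⟨(h.iso_EG b (nondeg_stdH 3)).some.trans (quotCenterEquiv (H.suEquivEG (by norm_num))).symm⟩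

end Cfsg.Agent.B85I
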